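import Mathlib
import Cfsg.Prelude.Def_ClassicalGeometry

/-! Elements of order 2, 3 and 15 in PSL₃(4). -/

set_option autoImplicit false

namespace Cfsg.Agent.H29.SLThreeFour

open Matrix Module

variable {F : Type*} [Field F] [Fintype F]

abbrev S (F : Type*) [Field F] := Matrix.SpecialLinearGroup (Fin 3) F

theorem units_cube (hF : Fintype.card F = 4) {a : F} (ha : a ≠ 0) : a ^ 3 = 1 := by
  have := FiniteField.pow_card_sub_one_eq_one a ha
  rwa [hF] at this

theorem char_two (hF : Fintype.card F = 4) : (2 : F) = 0 := by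
  have h : ringChar F = 2 :=
    FiniteField.even_card_iff_char_two.mpr (Nat.even_iff.mp ⟨2, by rw [hF]⟩)
  have := ringChar.Nat.cast_ringChar (R := F)
  rw [h] at this
  exact_mod_cast this

theorem exists_omega (hF : Fintype.card F = 4) : ∃ w : F, w ≠ 0 ∧ w ≠ 1 ∧ 1 + w + w * w = 0 := by
  classical
  obtain ⟨w, hw⟩ : ∃ w : F, w ∉ ({0, 1} : Finset F) := by
    by_contra h
    push Not at h
    have := Finset.card_le_card (show (Finset.univ : Finset F) ⊆ {0, 1} from fun x _ => h x)
    have h2 : ({0, 1} : Finset F).card ≤ 2 := Finset.card_le_two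
    rw [Finset.card_univ, hF] at this
    omega
  simp at hw
  refine ⟨w, hw.1, hw.2, ?_⟩
  have h3 := units_cube hF hw.1
  have : (w - 1) * (1 + w + w * w) = 0 := by linear_combination h3
  exact (mul_eq_zero.mp this).resolve_left (sub_ne_zero.mpr hw.2)

theorem center_scalar {z : S F} (hz : z ∈ Subgroup.center (S F)) :
    ∃ r : F, r ^ 3 = 1 ∧ (z : Matrix (Fin 3) (Fin 3) F) = scalar (Fin 3) r := by
  obtain ⟨r, hr, h⟩ := Matrix.SpecialLinearGroup.mem_center_iff.mp hz
  exact ⟨r, by simpa using hr, h.symm⟩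

theorem lift_order_two (hF : Fintype.card F = 4) (x : Matrix.ProjectiveSpecialLinearGroup (Fin 3) F)
    (hx : orderOf x = 2) :
    ∃ g : S F, QuotientGroup.mk g = x ∧
      Cfsg.IsTransvection (g : Matrix (Fin 3) (Fin 3) F) := by
  obtain ⟨g, rfl⟩ := QuotientGroup.mk_surjective x
  have h := pow_orderOf_eq_one (QuotientGroup.mk g : Matrix.ProjectiveSpecialLinearGroup (Fin 3) F)
  rw [hx, ← QuotientGroup.mk_pow, QuotientGroup.eq_one_iff] at h
  set z : S F := g ^ 2 with hz
  have hz3 : z ^ 3 = 1 := by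
    obtain ⟨r, hr, e⟩ := center_scalar h
    refine Subtype.ext ?_
    rw [Matrix.SpecialLinearGroup.coe_pow, e, ← map_pow, hr, map_one]; rfl
  set k := g * z with hk
  have hkz : (QuotientGroup.mk k : Matrix.ProjectiveSpecialLinearGroup (Fin 3) F) = QuotientGroup.mk g := by
    rw [hk, QuotientGroup.mk_mul, (QuotientGroup.eq_one_iff z).mpr h, mul_one]
  have hk2 : k * k = 1 := by
    rw [hk, hz, ← pow_succ' g 2, ← pow_add, show 2 + 1 + (2 + 1) = 2 * 3 from rfl, pow_mul, ← hz, hz3]
  refine ⟨k, hkz, ?_⟩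
  have hkm : (k : Matrix (Fin 3) (Fin 3) F) * k = 1 := by
    rw [← Matrix.SpecialLinearGroup.coe_mul, hk2]; rfl
  have hN : ((k : Matrix (Fin 3) (Fin 3) F) - 1) * ((k : Matrix (Fin 3) (Fin 3) F) - 1) = 0 := by
    rw [sub_mul, mul_sub, hkm, one_mul, mul_one]
    ext i j
    simp only [Matrix.sub_apply, Matrix.zero_apply]
    linear_combination ((1 : Matrix (Fin 3) (Fin 3) F) i j - (k : Matrix (Fin 3) (Fin 3) F) i j) *
      char_two hF
  refine ⟨?_, hN⟩
  set N := (k : Matrix (Fin 3) (Fin 3) F) - 1 with hNd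
  have h0 : N.rank ≠ 0 := by
    intro h0
    rw [Matrix.rank, Submodule.finrank_eq_zero, LinearMap.range_eq_bot] at h0
    have hN0 : N = 0 := Matrix.toLin'.injective (by rw [map_zero]; exact h0)
    have : k = 1 := Subtype.ext (sub_eq_zero.mp hN0)
    rw [this] at hkz
    rw [← hkz, QuotientGroup.mk_one, orderOf_one] at hx
    omega
  have hle : N.rank + N.rank ≤ 3 := by
    have hr := LinearMap.finrank_range_add_finrank_ker N.mulVecLin
    have hs : LinearMap.range N.mulVecLin ≤ LinearMap.ker N.mulVecLin := by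
      rintro _ ⟨v, rfl⟩
      simp [hN]
    have hs' := Submodule.finrank_mono hs
    rw [Module.finrank_fin_fun] at hr
    rw [Matrix.rank]
    omega
  omega

/-- `diag(1, w, w²)`. -/
def D (w : F) (hw : w ^ 3 = 1) : S F :=
  ⟨diagonal ![1, w, w * w], by rw [det_diagonal, Fin.prod_univ_three]; simp; linear_combination hw⟩

theorem lift_order_three (hF : Fintype.card F = 4) {w : F} (hw0 : w ≠ 0) (hw1 : w ≠ 1)
    (hw : 1 + w + w * w = 0) (x : Matrix.ProjectiveSpecialLinearGroup (Fin 3) F)
    (hx : orderOf x = 3) :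
    IsConj (QuotientGroup.mk (D w (units_cube hF hw0)) : Matrix.ProjectiveSpecialLinearGroup (Fin 3) F) x := by
  classical
  obtain ⟨g, rfl⟩ := QuotientGroup.mk_surjective x
  have h := pow_orderOf_eq_one (QuotientGroup.mk g : Matrix.ProjectiveSpecialLinearGroup (Fin 3) F)
  rw [hx, ← QuotientGroup.mk_pow, QuotientGroup.eq_one_iff] at h
  obtain ⟨r, hr, e⟩ := center_scalar h
  set M := (g : Matrix (Fin 3) (Fin 3) F) with hM
  rw [Matrix.SpecialLinearGroup.coe_pow] at e
  have hw3 := units_cube hF hw0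
  have hr1 : r = 1 := by
    by_contra hr1
    open Polynomial in
    have hdeg : (X ^ 3 - C r : F[X]).natDegree = 3 := natDegree_X_pow_sub_C
    open Polynomial in
    have hirr : Irreducible (X ^ 3 - C r : F[X]) := by
      refine (irreducible_iff_roots_eq_zero_of_degree_le_three (by omega) (by omega)).mpr ?_
      refine Multiset.eq_zero_of_forall_notMem fun a ha => ?_
      have h := isRoot_of_mem_roots ha
      simp [sub_eq_zero] at h
      rcases eq_or_ne a 0 with rfl | ha0
      · simp at h; rw [← h] at hr; simp at hr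
      · exact hr1 (h.symm.trans (units_cube hF ha0))
    open Polynomial in
    have hmin : minpoly F M = X ^ 3 - C r := by
      refine (minpoly.eq_of_irreducible_of_monic hirr ?_ (monic_X_pow_sub_C r (by norm_num))).symm
      rw [map_sub, map_pow, aeval_X, aeval_C, e, sub_eq_zero]
      rfl
    have hchar : M.charpoly = minpoly F M := by
      refine (Polynomial.eq_of_monic_of_dvd_of_natDegree_le (minpoly.monic (Matrix.isIntegral M))
        (charpoly_monic M) (Matrix.minpoly_dvd_charpoly M) ?_)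
      rw [hmin, hdeg, charpoly_natDegree_eq_dim]; simp
    have hdet : M.det = 1 := g.2
    rw [det_eq_sign_charpoly_coeff, hchar, hmin] at hdet
    simp at hdet
    exact hr1 (by linear_combination hdet)
  subst hr1
  rw [map_one] at e
  have hroots : ∀ a : F, a ^ 3 = 1 → a = 1 ∨ a = w ∨ a = w * w := by
    intro a ha
    have : (a - 1) * ((a - w) * (a - w * w)) = 0 := by
      linear_combination ha + (a - a * a) * hw + (a - 1) * hw3
    rcases mul_eq_zero.mp this with h | h
    · exact Or.inl (sub_eq_zero.mp h)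
    · rcases mul_eq_zero.mp h with h | h
      · exact Or.inr (Or.inl (sub_eq_zero.mp h))
      · exact Or.inr (Or.inr (sub_eq_zero.mp h))
  let E : Set (Fin 3 → F) := {v | ∃ a : F, a ^ 3 = 1 ∧ M *ᵥ v = a • v}
  have hspan : ⊤ ≤ Submodule.span F E := by
    intro v _
    have key : ∀ a : F, a ^ 3 = 1 → v + a • (M *ᵥ v) + (a * a) • ((M * M) *ᵥ v) ∈ E := by
      intro a ha
      refine ⟨a * a, by linear_combination (a ^ 3 + 1) * ha, ?_⟩
      have e1 : M *ᵥ ((M * M) *ᵥ v) = v := by
        rw [mulVec_mulVec, show M * (M * M) = M ^ 3 by simp [pow_succ, mul_assoc], e, one_mulVec]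
      rw [mulVec_add, mulVec_add, mulVec_smul, mulVec_smul, e1, mulVec_mulVec, smul_add, smul_add,
        smul_smul, smul_smul, show a * a * a = 1 by linear_combination ha, one_smul,
        show a * a * (a * a) = a by linear_combination a * ha]
      abel
    have hsum : v = (v + (1 : F) • (M *ᵥ v) + ((1 : F) * 1) • ((M * M) *ᵥ v)) +
        (v + w • (M *ᵥ v) + (w * w) • ((M * M) *ᵥ v)) +
        (v + (w * w) • (M *ᵥ v) + (w * w * (w * w)) • ((M * M) *ᵥ v)) := by
      funext i
      simp only [Pi.add_apply, Pi.smul_apply, smul_eq_mul]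
      linear_combination (-v i) * char_two hF - (M *ᵥ v) i * hw -
        ((M * M) *ᵥ v) i * (hw + w * hw3)
    rw [hsum]
    exact add_mem (add_mem (Submodule.subset_span (key 1 (one_pow 3)))
      (Submodule.subset_span (key w hw3)))
      (Submodule.subset_span (key (w * w) (by linear_combination (w ^ 3 + 1) * hw3)))
  let B₀ := Basis.ofSpan hspan
  let B := B₀.reindex (B₀.indexEquiv (Pi.basisFun F (Fin 3)))
  have hB : ∀ i, ∃ a : F, a ^ 3 = 1 ∧ M *ᵥ B i = a • B i := by
    intro i
    have : B₀ ((B₀.indexEquiv (Pi.basisFun F (Fin 3))).symm i) ∈ E :=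
      Basis.ofSpan_subset hspan ⟨_, rfl⟩
    simpa [B, E] using this
  choose a ha hMa using hB
  let P : Matrix (Fin 3) (Fin 3) F := (Pi.basisFun F (Fin 3)).toMatrix B
  have hP : IsUnit P.det := (isUnit_iff_isUnit_det P).mp
    (@isUnit_of_invertible _ _ _ ((Pi.basisFun F (Fin 3)).invertibleToMatrix B))
  have hMP : M * P = P * diagonal a := by
    ext i j
    rw [mul_diagonal, mul_apply]
    have := congrFun (hMa j) i
    simp only [P, Basis.toMatrix_apply, Pi.basisFun_repr, mulVec, dotProduct, Pi.smul_apply,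
      smul_eq_mul] at this ⊢
    rw [this, mul_comm]
  have hprod : a 0 * a 1 * a 2 = 1 := by
    have := congrArg det hMP
    rw [det_mul, det_mul, det_diagonal, Fin.prod_univ_three, show M.det = 1 from g.2, one_mul] at this
    exact (mul_left_cancel₀ hP.ne_zero (by rw [mul_one]; exact this)).symm
  have hnc : ∀ i j, i ≠ j → a i ≠ a j := by
    intro i j hij hc
    apply absurd hx
    have hall : ∀ l, a l = a 0 := by
      have c0 := ha 0
      have c1 := ha 1
      have c2 := ha 2
      have h01 : a 1 = a 0 ∧ a 2 = a 0 := by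
        fin_cases i <;> fin_cases j <;> simp at hij hc
        · exact ⟨hc.symm, by linear_combination (a 0) * hprod - a 2 * c0 + a 0 ^ 2 * a 2 * hc⟩
        · exact ⟨by linear_combination (a 0) * hprod - a 1 * c0 + a 0 ^ 2 * a 1 * hc, hc.symm⟩
        · exact ⟨hc, by linear_combination (a 0) * hprod - a 2 * c0 - a 0 ^ 2 * a 2 * hc⟩
        · have h1 : a 1 = a 0 := by linear_combination -(a 1) * hprod + a 0 * c1 - a 0 * a 1 ^ 2 * hc
          exact ⟨h1, hc ▸ h1⟩
        · exact ⟨by linear_combination (a 0) * hprod - a 1 * c0 - a 0 ^ 2 * a 1 * hc, hc⟩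
        · have h1 : a 1 = a 0 := by linear_combination -(a 1) * hprod + a 0 * c1 + a 0 * a 1 ^ 2 * hc
          exact ⟨h1, hc.symm ▸ h1⟩
      intro l; fin_cases l
      · rfl
      · exact h01.1
      · exact h01.2
    have hM' : M = scalar (Fin 3) (a 0) := by
      have hd : diagonal a = scalar (Fin 3) (a 0) := by
        rw [scalar_apply]; exact congrArg diagonal (funext hall)
      rw [hd] at hMP
      have hcm : P * scalar (Fin 3) (a 0) = scalar (Fin 3) (a 0) * P := by
        ext i j; simp [mul_comm]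
      rw [hcm] at hMP
      exact ((isUnit_iff_isUnit_det P).mpr hP).mul_right_cancel hMP
    have : (QuotientGroup.mk g : Matrix.ProjectiveSpecialLinearGroup (Fin 3) F) = 1 :=
      (QuotientGroup.eq_one_iff g).mpr
        (Matrix.SpecialLinearGroup.mem_center_iff.mpr ⟨a 0, by simpa using ha 0, hM'.symm⟩)
    rw [this, orderOf_one]; omega
  have hinj : Function.Injective a := fun i j h => by_contra fun hij => hnc i j hij h
  let tgt : Fin 3 → F := ![1, w, w * w]
  have hmem : ∀ i, a i ∈ Finset.univ.image tgt := by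
    intro i
    rcases hroots _ (ha i) with h | h | h
    · exact Finset.mem_image.mpr ⟨0, Finset.mem_univ _, by simp [tgt, h]⟩
    · exact Finset.mem_image.mpr ⟨1, Finset.mem_univ _, by simp [tgt, h]⟩
    · exact Finset.mem_image.mpr ⟨2, Finset.mem_univ _, by simp [tgt, h]⟩
  have hσ : ∀ i, ∃ j, tgt j = a i := fun i => by
    obtain ⟨j, -, hj⟩ := Finset.mem_image.mp (hmem i); exact ⟨j, hj⟩
  choose σ hσ' using hσ
  have hσinj : Function.Injective σ := fun i j h => hinj (by rw [← hσ' i, ← hσ' j, h])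
  let π : Equiv.Perm (Fin 3) := (Equiv.ofBijective σ (Finite.injective_iff_bijective.mp hσinj)).symm
  have hπ : ∀ j, a (π j) = tgt j := fun j => by
    rw [← hσ' (π j)]
    exact congrArg tgt ((Equiv.ofBijective σ (Finite.injective_iff_bijective.mp hσinj)).apply_symm_apply j)
  let Q : Matrix (Fin 3) (Fin 3) F := P.submatrix id π
  have hQd : Q.det ≠ 0 := by
    rw [show Q = P.submatrix id π from rfl, det_permute']
    exact mul_ne_zero (by
      rcases Int.units_eq_one_or (Equiv.Perm.sign π) with h | h <;> simp [h]) hP.ne_zero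
  let R : Matrix (Fin 3) (Fin 3) F := Q * diagonal ![Q.det⁻¹, 1, 1]
  have hR : R.det = 1 := by
    simp [R, det_mul, det_diagonal, Fin.prod_univ_three, hQd]
  obtain ⟨Rs, hRs⟩ : ∃ Rs : S F, (Rs : Matrix (Fin 3) (Fin 3) F) = R := ⟨⟨R, hR⟩, rfl⟩
  refine isConj_iff.mpr ⟨QuotientGroup.mk Rs, ?_⟩
  rw [← QuotientGroup.mk_mul, ← QuotientGroup.mk_inv, ← QuotientGroup.mk_mul]
  congr 1
  rw [mul_inv_eq_iff_eq_mul]
  refine Subtype.ext ?_
  rw [Matrix.SpecialLinearGroup.coe_mul, Matrix.SpecialLinearGroup.coe_mul]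
  rw [hRs]
  show R * diagonal tgt = M * R
  have hMQ : M * Q = Q * diagonal tgt := by
    ext i j
    have := congrFun (congrFun hMP i) (π j)
    rw [mul_diagonal] at this ⊢
    rw [← hπ j]
    exact this
  rw [← Matrix.mul_assoc, hMQ, Matrix.mul_assoc, Matrix.mul_assoc, diagonal_mul_diagonal,
    diagonal_mul_diagonal]
  congr 2; funext i; exact mul_comm _ _

theorem no_order_fifteen (hF : Fintype.card F = 4) (x : Matrix.ProjectiveSpecialLinearGroup (Fin 3) F) :
    orderOf x ≠ 15 := by
  classical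
  intro hx
  obtain ⟨w, hw0, hw1, hw⟩ := exists_omega hF
  have hw3 := units_cube hF hw0
  have h3 : orderOf (x ^ 5) = 3 := by rw [orderOf_pow' x (by norm_num), hx]; rfl
  have h5 : orderOf (x ^ 3) = 5 := by rw [orderOf_pow' x (by norm_num), hx]; rfl
  obtain ⟨c, hc⟩ := isConj_iff.mp (lift_order_three hF hw0 hw1 hw (x ^ 5) h3)
  set u := c⁻¹ * x ^ 3 * c with hu
  have h5' : orderOf u = 5 := by
    rw [← h5, hu]
    exact orderOf_injective (MulAut.conj c⁻¹).toMonoidHom (MulAut.conj c⁻¹).injective (x ^ 3) |>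
      fun e => by simpa using e
  have hcomm : Commute u (QuotientGroup.mk (D w hw3)) := by
    have : (QuotientGroup.mk (D w hw3) : Matrix.ProjectiveSpecialLinearGroup (Fin 3) F) =
        c⁻¹ * x ^ 5 * c := by rw [← hc]; group
    rw [this, hu, Commute, SemiconjBy]; group
  obtain ⟨k, hk⟩ := QuotientGroup.mk_surjective u
  rw [← hk, Commute, SemiconjBy, ← QuotientGroup.mk_mul, ← QuotientGroup.mk_mul,
    QuotientGroup.eq] at hcomm
  obtain ⟨r, hr, e⟩ := center_scalar hcomm
  set Dm : Matrix (Fin 3) (Fin 3) F := diagonal ![1, w, w * w] with hDm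
  set K := (k : Matrix (Fin 3) (Fin 3) F) with hK
  have hrel : Dm * K = r • (K * Dm) := by
    have h1 : D w hw3 * k = k * D w hw3 * ((k * D w hw3)⁻¹ * (D w hw3 * k)) := by group
    have h2 := congrArg (fun s : S F => (s : Matrix (Fin 3) (Fin 3) F)) h1
    simp only [Matrix.SpecialLinearGroup.coe_mul] at h2
    rw [Matrix.SpecialLinearGroup.coe_mul] at e
    rw [show (((k * D w hw3)⁻¹ : S F) : Matrix (Fin 3) (Fin 3) F) *
      ((D w hw3 : Matrix (Fin 3) (Fin 3) F) * (k : Matrix (Fin 3) (Fin 3) F)) = scalar (Fin 3) r from e] at h2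
    change Dm * K = K * Dm * scalar (Fin 3) r at h2
    rw [h2]; ext i j; simp [mul_comm]
  have hpow : ∀ n : ℕ, Dm * K ^ n = r ^ n • (K ^ n * Dm) := by
    intro n
    induction n with
    | zero => simp
    | succ n ih =>
      rw [pow_succ, ← mul_assoc, ih, smul_mul_assoc, mul_assoc, hrel, mul_smul_comm, smul_smul,
        mul_assoc, pow_succ]
  have hk5 : ∃ s : F, s ^ 3 = 1 ∧ K ^ 5 = scalar (Fin 3) s := by
    have h := pow_orderOf_eq_one u
    rw [h5', ← hk, ← QuotientGroup.mk_pow, QuotientGroup.eq_one_iff] at h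
    obtain ⟨s, hs, e⟩ := center_scalar h
    rw [Matrix.SpecialLinearGroup.coe_pow] at e
    exact ⟨s, hs, e⟩
  obtain ⟨s, hs, hs5⟩ := hk5
  have hr1 : r = 1 := by
    have h := hpow 5
    rw [hs5] at h
    have h00 := congrFun (congrFun h 0) 0
    simp [Dm] at h00
    have hs0 : s ≠ 0 := by rintro rfl; simp at hs
    have : r ^ 5 = 1 := by
      have := mul_right_cancel₀ hs0 (show r ^ 5 * s = 1 * s by rw [one_mul]; exact h00.symm)
      exact this
    have h1 : r ^ 2 = 1 := by rw [← this, show 5 = 3 + 2 from rfl, pow_add, hr, one_mul]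
    calc r = r ^ 3 := by rw [pow_succ, h1, one_mul]
    _ = 1 := hr
  subst hr1
  rw [one_smul] at hrel
  have hoff : ∀ i j, i ≠ j → K i j = 0 := by
    intro i j hij
    have h := congrFun (congrFun hrel i) j
    rw [hDm, diagonal_mul, mul_diagonal] at h
    have hne : (![1, w, w * w] : Fin 3 → F) i ≠ (![1, w, w * w] : Fin 3 → F) j := by
      have e1 : w * w ≠ 1 := fun h1 => hw1 (by linear_combination hw3 - w * h1)
      have e2 : w * w ≠ w := fun h1 => hw1 (mul_left_cancel₀ hw0 (by rw [mul_one]; exact h1))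
      fin_cases i <;> fin_cases j <;> simp_all [Ne.symm]
    exact (mul_eq_zero.mp (show ((![1, w, w * w] : Fin 3 → F) i -
      (![1, w, w * w] : Fin 3 → F) j) * K i j = 0 by linear_combination h)).resolve_left
      (sub_ne_zero.mpr hne)
  have hk3 : k ^ 3 = 1 := by
    have hKd : K = diagonal fun i => K i i := by
      ext i j
      by_cases hij : i = j
      · subst hij; simp
      · simp [hij, hoff i j hij]
    have hdet : K.det = 1 := k.2
    rw [hKd, det_diagonal] at hdet
    apply Subtype.ext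
    rw [Matrix.SpecialLinearGroup.coe_pow, show (k : Matrix (Fin 3) (Fin 3) F) = K from rfl, hKd,
      diagonal_pow]
    show diagonal _ = (1 : Matrix (Fin 3) (Fin 3) F)
    rw [← diagonal_one]
    congr 1
    funext i
    exact units_cube hF (fun h0 => by
      rw [Finset.prod_eq_zero (f := fun i => K i i) (Finset.mem_univ i) h0] at hdet; exact zero_ne_one hdet)
  have : u ^ 3 = 1 := by rw [← hk, ← QuotientGroup.mk_pow, hk3, QuotientGroup.mk_one]
  have := orderOf_dvd_of_pow_eq_one this
  rw [h5'] at this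
  norm_num at this

end Cfsg.Agent.H29.SLThreeFour
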