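import Mathlib

/-! The (2,3,5) group has order at most 60. -/

set_option autoImplicit false

namespace Cfsg.Agent.H29.A5Pres

variable {G : Type*} [Group G]

def rep (t y : G) : Fin 12 → G :=
  ![1, t, t * y, t * y ^ 2, t * y ^ 3, t * y ^ 4,
    t * y ^ 2 * t, t * y ^ 2 * t * y, t * y ^ 2 * t * y ^ 2, t * y ^ 2 * t * y ^ 3,
    t * y ^ 2 * t * y ^ 4, t * y ^ 2 * t * y ^ 3 * t]

variable (t y : G) (ht : t * t = 1) (hy : y ^ 5 = 1) (h3 : (y * t) ^ 3 = 1)

include ht hy h3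

omit ht in
theorem r1 (w : G) (ht : t * t = 1) : t * (y * (t * w)) = y ^ 4 * (t * (y ^ 4 * w)) := by
  have hy4 : y ^ 4 = y⁻¹ := eq_inv_of_mul_eq_one_left (by rw [← pow_succ, hy])
  have ht' : t⁻¹ = t := inv_eq_of_mul_eq_one_left ht
  rw [hy4]
  have h : t * y * t = y⁻¹ * t * y⁻¹ := by
    have h4 : y * (t * y * t) * (y * t) = 1 := by
      rw [pow_succ, pow_two] at h3; rw [← h3]; group
    calc t * y * t = y⁻¹ * (y * (t * y * t) * (y * t)) * (y * t)⁻¹ := by group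
    _ = y⁻¹ * t * y⁻¹ := by rw [h4, mul_inv_rev, ht']; group
  rw [← mul_assoc, ← mul_assoc, h]; group

theorem r4 (w : G) : t * (y ^ 4 * (t * w)) = y * (t * (y * w)) := by
  have hy4 : y ^ 4 = y⁻¹ := eq_inv_of_mul_eq_one_left (by rw [← pow_succ, hy])
  have ht' : t⁻¹ = t := inv_eq_of_mul_eq_one_left ht
  have h := r1 t y hy h3 1 ht
  rw [hy4] at h ⊢
  simp only [mul_one] at h
  have h' : t * y⁻¹ * t = y * t * y := by
    have := congrArg (·⁻¹) h
    simpa [mul_inv_rev, ht', mul_assoc] using this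
  calc t * (y⁻¹ * (t * w)) = (t * y⁻¹ * t) * w := by group
  _ = _ := by rw [h']; group

theorem step_t (i : Fin 12) : ∃ (a : ℕ) (j : Fin 12), rep t y i * t = y ^ a * rep t y j := by
  have tt : ∀ w : G, t * (t * w) = w := fun w => by rw [← mul_assoc, ht, one_mul]
  have y5 : ∀ w : G, y ^ 5 * w = w := fun w => by rw [hy, one_mul]
  have e1 := r1 t y hy h3
  have e4 := r4 t y ht hy h3
  have c1 : t * y * t = y ^ 4 * (t * y ^ 4) := by
    simpa [mul_assoc] using e1 1 ht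
  have c4 : t * y ^ 4 * t = y * (t * y) := by
    simpa [mul_assoc] using e4 1
  have c3 : t * y ^ 3 * t = y * (t * y ^ 2 * t * y) := by
    calc t * y ^ 3 * t = t * (y ^ 4 * (y ^ 4 * t)) := by
          rw [← mul_assoc (y ^ 4), ← pow_add, show y ^ (4 + 4) = y ^ 3 by
            rw [show 4 + 4 = 3 + 5 from rfl, pow_add, hy, mul_one], mul_assoc]
    _ = t * (y ^ 4 * (t * (t * (y ^ 4 * (t * 1))))) := by rw [tt, mul_one]
    _ = y * (t * (y * (y * (t * (y * 1))))) := by rw [e4, e4]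
    _ = _ := by simp [mul_assoc, pow_two]
  have d1 : t * y ^ 2 * t * y * t = y ^ 4 * (t * y ^ 3) := by
    calc t * y ^ 2 * t * y * t = t * y ^ 2 * (t * y * t) := by group
    _ = t * (y ^ 2 * (y ^ 4 * (t * y ^ 4))) := by rw [c1]; group
    _ = t * (y * (t * y ^ 4)) := by
      rw [← mul_assoc (y ^ 2), ← pow_add, show y ^ (2 + 4) = y by
        rw [show 2 + 4 = 5 + 1 from rfl, pow_add, hy, one_mul, pow_one]]
    _ = y ^ 4 * (t * (y ^ 4 * y ^ 4)) := e1 _ ht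
    _ = _ := by
      rw [← pow_add, show y ^ (4 + 4) = y ^ 3 by
        rw [show 4 + 4 = 3 + 5 from rfl, pow_add, hy, mul_one]]
  have d4 : t * y ^ 2 * t * y ^ 4 * t = y * (t * y ^ 2 * t * y ^ 2) := by
    calc t * y ^ 2 * t * y ^ 4 * t = t * y ^ 2 * (t * y ^ 4 * t) := by group
    _ = t * y ^ 3 * t * y := by rw [c4]; group
    _ = _ := by rw [c3]; simp [mul_assoc, pow_two]
  have d2 : t * y ^ 2 * t * y ^ 2 * t = y ^ 4 * (t * y ^ 2 * t * y ^ 4) := by
    have h : t * y ^ 2 * t * y ^ 2 = y ^ 4 * (t * y ^ 2 * t * y ^ 4 * t) := by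
      rw [d4, ← mul_assoc (y ^ 4), ← pow_succ, hy, one_mul]
    conv_lhs => rw [h]
    rw [mul_assoc, mul_assoc (t * y ^ 2 * t * y ^ 4), ht, mul_one]
  fin_cases i
  · exact ⟨0, 1, by simp [rep]⟩
  · exact ⟨0, 0, by simp [rep, ht]⟩
  · exact ⟨4, 5, by simp [rep, c1]⟩
  · exact ⟨0, 6, by simp [rep]⟩
  · exact ⟨1, 7, by simp [rep, c3]⟩
  · exact ⟨1, 2, by simp [rep, c4]⟩
  · exact ⟨0, 3, by simp [rep, mul_assoc, ht]⟩
  · exact ⟨4, 4, by simp [rep, d1]⟩
  · exact ⟨4, 10, by simp [rep, d2]⟩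
  · exact ⟨0, 11, by simp [rep]⟩
  · exact ⟨1, 8, by simp [rep, d4]⟩
  · exact ⟨0, 9, by simp [rep, mul_assoc, ht]⟩

theorem step_y (i : Fin 12) : ∃ (a : ℕ) (j : Fin 12), rep t y i * y = y ^ a * rep t y j := by
  have tt : ∀ w : G, t * (t * w) = w := fun w => by rw [← mul_assoc, ht, one_mul]
  have p5 : ∀ z : G, z * y ^ 4 * y = z := fun z => by rw [mul_assoc, ← pow_succ, hy, mul_one]
  have hW : t * y ^ 2 * t * y ^ 3 * t * y = y ^ 4 * (t * y ^ 2 * t * y ^ 3 * t) := by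
    have e1 := r1 t y hy h3
    obtain c := e1 1 ht
    simp only [mul_one] at c
    have h2 : y ^ 4 * (t * (y ^ 4 * t)) = t * y := by
      calc y ^ 4 * (t * (y ^ 4 * t)) = (y ^ 4 * (t * y ^ 4)) * t := by group
      _ = t * (y * t) * t := by rw [c]
      _ = t * y := by simp [mul_assoc, ht]
    have c4 : t * y ^ 4 * t = y * (t * y) := by
      simpa [mul_assoc] using r4 t y ht hy h3 1
    obtain ⟨e, he⟩ : ∃ e : G, e = t * y ^ 2 * t * y ^ 2 * t := ⟨_, rfl⟩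
    have c3 : t * y ^ 3 * t = y * (t * y ^ 2 * t * y) := by
      calc t * y ^ 3 * t = t * (y ^ 4 * (y ^ 4 * t)) := by
            rw [← mul_assoc (y ^ 4), ← pow_add, show y ^ (4 + 4) = y ^ 3 by
              rw [show 4 + 4 = 3 + 5 from rfl, pow_add, hy, mul_one], mul_assoc]
      _ = t * (y ^ 4 * (t * (t * (y ^ 4 * (t * 1))))) := by rw [tt, mul_one]
      _ = y * (t * (y * (y * (t * (y * 1))))) := by rw [r4 t y ht hy h3, r4 t y ht hy h3]
      _ = _ := by simp [mul_assoc, pow_two]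
    have d4 : t * y ^ 2 * t * y ^ 4 * t = y * (t * y ^ 2 * t * y ^ 2) := by
      calc t * y ^ 2 * t * y ^ 4 * t = t * y ^ 2 * (t * y ^ 4 * t) := by group
      _ = t * y ^ 3 * t * y := by rw [c4]; group
      _ = _ := by rw [c3]; simp [mul_assoc, pow_two]
    have d2 : e = y ^ 4 * (t * y ^ 2 * t * y ^ 4) := by
      have h : t * y ^ 2 * t * y ^ 2 = y ^ 4 * (t * y ^ 2 * t * y ^ 4 * t) := by
        rw [d4, ← mul_assoc (y ^ 4), ← pow_succ, hy, one_mul]
      rw [he, h, mul_assoc, mul_assoc (t * y ^ 2 * t * y ^ 4), ht, mul_one]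
    calc t * y ^ 2 * t * y ^ 3 * t * y = t * y ^ 2 * t * y ^ 3 * (y ^ 4 * (t * (y ^ 4 * t))) := by
          rw [h2]; group
    _ = (t * y ^ 2 * t * (y ^ 3 * y ^ 4) * t) * (y ^ 4 * t) := by group
    _ = e * (y ^ 4 * t) := by
          rw [← pow_add, show y ^ (3 + 4) = y ^ 2 by
            rw [show 3 + 4 = 2 + 5 from rfl, pow_add, hy, mul_one], he]
    _ = y ^ 4 * (t * y ^ 2 * t * (y ^ 4 * y ^ 4) * t) := by rw [d2]; group
    _ = _ := by
          rw [← pow_add, show y ^ (4 + 4) = y ^ 3 by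
            rw [show 4 + 4 = 3 + 5 from rfl, pow_add, hy, mul_one]]
  fin_cases i
  · exact ⟨1, 0, by simp [rep]⟩
  · exact ⟨0, 2, by simp [rep]⟩
  · exact ⟨0, 3, by simp [rep, mul_assoc, pow_two]⟩
  · exact ⟨0, 4, by simp [rep, mul_assoc, pow_succ]⟩
  · exact ⟨0, 5, by simp [rep, mul_assoc, pow_succ]⟩
  · exact ⟨0, 1, by simp [rep, p5]⟩
  · exact ⟨0, 7, by simp [rep]⟩
  · exact ⟨0, 8, by simp [rep, mul_assoc, pow_two]⟩
  · exact ⟨0, 9, by simp [rep, mul_assoc, pow_succ]⟩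
  · exact ⟨0, 10, by simp [rep, mul_assoc, pow_succ]⟩
  · exact ⟨0, 6, by simp [rep, p5]⟩
  · exact ⟨4, 11, by simp [rep, hW]⟩

theorem surjective (hgen : Subgroup.closure ({t, y} : Set G) = ⊤) :
    Function.Surjective (fun p : Fin 5 × Fin 12 => y ^ (p.1 : ℕ) * rep t y p.2) := by
  intro g
  have key : ∀ g ∈ Subgroup.closure ({t, y} : Set G), ∀ (a : ℕ) (i : Fin 12),
      ∃ (b : ℕ) (j : Fin 12), y ^ a * rep t y i * g = y ^ b * rep t y j := by
    intro g hg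
    have st : ∀ (a : ℕ) (i : Fin 12), ∃ (b : ℕ) (j : Fin 12),
        y ^ a * rep t y i * t = y ^ b * rep t y j := by
      intro a i
      obtain ⟨c, j, h⟩ := step_t t y ht hy h3 i
      exact ⟨a + c, j, by rw [mul_assoc, h, ← mul_assoc, pow_add]⟩
    have sy : ∀ (a : ℕ) (i : Fin 12), ∃ (b : ℕ) (j : Fin 12),
        y ^ a * rep t y i * y = y ^ b * rep t y j := by
      intro a i
      obtain ⟨c, j, h⟩ := step_y t y ht hy h3 i
      exact ⟨a + c, j, by rw [mul_assoc, h, ← mul_assoc, pow_add]⟩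
    induction hg using Subgroup.closure_induction_right with
    | one => exact fun a i => ⟨a, i, mul_one _⟩
    | mul_right x _ z hz ih =>
      intro a i
      obtain ⟨b, j, h⟩ := ih a i
      rcases hz with rfl | rfl
      · obtain ⟨c, k, h'⟩ := st b j; exact ⟨c, k, by rw [← mul_assoc, h, h']⟩
      · obtain ⟨c, k, h'⟩ := sy b j; exact ⟨c, k, by rw [← mul_assoc, h, h']⟩
    | mul_inv_cancel x _ z hz ih =>
      intro a i
      obtain ⟨b, j, h⟩ := ih a i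
      rcases hz with rfl | rfl
      · obtain ⟨c, k, h'⟩ := st b j
        exact ⟨c, k, by rw [inv_eq_of_mul_eq_one_left ht, ← mul_assoc, h, h']⟩
      · have e4 : z⁻¹ = z ^ 4 := inv_eq_of_mul_eq_one_left (by rw [← pow_succ, hy])
        obtain ⟨c1, k1, h1⟩ := sy b j
        obtain ⟨c2, k2, h2⟩ := sy c1 k1
        obtain ⟨c3, k3, h3⟩ := sy c2 k2
        obtain ⟨c4, k4, h4⟩ := sy c3 k3
        refine ⟨c4, k4, ?_⟩
        rw [← mul_assoc, h, e4, pow_succ, pow_succ, pow_two, ← mul_assoc, ← mul_assoc, ← mul_assoc,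
          h1, h2, h3, h4]
  obtain ⟨b, j, h⟩ := key g (hgen ▸ Subgroup.mem_top _) 0 0
  refine ⟨(⟨b % 5, Nat.mod_lt _ (by norm_num)⟩, j), ?_⟩
  simp only
  rw [← pow_eq_pow_mod _ hy, ← h]
  simp [rep]

end Cfsg.Agent.H29.A5Pres
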