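import Mathlib

/-! A Coxeter element and few simple reflections generate some Coxeter groups. -/

set_option autoImplicit false

namespace Cfsg.Agent.H29.CoxGen

variable {W : Type*} [Group W]

theorem comm_of_two {x y : W} (hx : x * x = 1) (hy : y * y = 1) (h : (x * y) ^ 2 = 1) : Commute x y := by
  rw [pow_two, mul_eq_one_iff_eq_inv, mul_inv_rev, inv_eq_of_mul_eq_one_left hx,
    inv_eq_of_mul_eq_one_left hy] at h
  exact h

theorem braid_of_three {x y : W} (hx : x * x = 1) (hy : y * y = 1) (h : (x * y) ^ 3 = 1) :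
    x * y * x = y * x * y := by
  have h1 : x * y * x * (y * x * y) = 1 := by rw [← h, pow_succ, pow_two]; group
  rw [mul_eq_one_iff_eq_inv] at h1
  rw [h1, mul_inv_rev, mul_inv_rev, inv_eq_of_mul_eq_one_left hx, inv_eq_of_mul_eq_one_left hy]
  group

/-- Conjugation by a product moves one reflection to the next. -/
theorem shift {a b A B : W} (ha : a * a = 1) (hb : b * b = 1) (hab : (a * b) ^ 3 = 1)
    (hB : Commute a B) (hA : Commute b A) : (A * (a * (b * B))) * a * (A * (a * (b * B)))⁻¹ = b := by
  have h := braid_of_three ha hb hab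
  calc _ = A * (a * b * (B * a * B⁻¹) * b⁻¹ * a⁻¹) * A⁻¹ := by group
  _ = A * (a * b * a * b⁻¹ * a⁻¹) * A⁻¹ := by rw [← hB.eq]; group
  _ = A * b * A⁻¹ := by rw [h]; group
  _ = b := by rw [← hA.eq]; group

/-- Shift along the ordered product of the values of `s`. -/
theorem shift_finRange {n : ℕ} (s : Fin n → W) (hs : ∀ i, s i * s i = 1)
    (k : ℕ) (hk : k + 1 < n) (h3 : (s ⟨k, by omega⟩ * s ⟨k + 1, hk⟩) ^ 3 = 1)
    (hsuf : ∀ j : Fin n, k + 1 < j → Commute (s ⟨k, by omega⟩) (s j))
    (hpre : ∀ j : Fin n, (j : ℕ) < k → Commute (s ⟨k + 1, hk⟩) (s j)) :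
    ((List.finRange n).map s).prod * s ⟨k, by omega⟩ * (((List.finRange n).map s).prod)⁻¹ =
      s ⟨k + 1, hk⟩ := by
  set L := (List.finRange n).map s with hL
  have hlen : L.length = n := by simp [L]
  have hsplit : L.prod = (L.take k).prod * (s ⟨k, by omega⟩ * (s ⟨k + 1, hk⟩ * (L.drop (k + 2)).prod)) := by
    conv_lhs => rw [← List.take_append_drop k L]
    rw [List.prod_append, List.drop_eq_getElem_cons (by omega : k < L.length),
      List.drop_eq_getElem_cons (by omega : k + 1 < L.length)]
    simp [L]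
  rw [hsplit]
  refine shift (hs _) (hs _) h3 ?_ ?_
  · refine Commute.list_prod_right _ _ fun x hx => ?_
    obtain ⟨i, hi, rfl⟩ := List.mem_iff_getElem.mp hx
    simp only [List.getElem_drop, L, List.getElem_map, List.getElem_finRange]
    exact hsuf _ (by simp; omega)
  · refine Commute.list_prod_right _ _ fun x hx => ?_
    obtain ⟨i, hi, rfl⟩ := List.mem_iff_getElem.mp hx
    simp only [List.getElem_take, L, List.getElem_map, List.getElem_finRange]
    exact hpre _ (by simp at hi ⊢; omega)

/-- The branching argument for the exceptional diagrams of type E. -/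
theorem typeE {H : Subgroup W} {a b c d P : W} (ha : a * a = 1) (hb : b * b = 1) (hc : c * c = 1)
    (hd : d * d = 1) (hab : Commute a b) (hbc : Commute b c) (had : Commute a d)
    (hac : (a * c) ^ 3 = 1) (hcd : (c * d) ^ 3 = 1) (hH : a * (b * (c * P)) ∈ H) (hP : P ∈ H)
    (hdH : d ∈ H) : a ∈ H ∧ b ∈ H ∧ c ∈ H := by
  set w := a * b * c with hw'
  have hw : w ∈ H := by
    have := mul_mem hH (inv_mem hP)
    simpa [w, mul_assoc] using this
  have hz : w = b * (a * c) := by rw [hw', hab.eq, mul_assoc]
  have hbz : Commute b (a * c) := hab.symm.mul_right hbc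
  have hbH : b ∈ H := by
    have h3 : w ^ 3 = b := by
      rw [hz, hbz.mul_pow, hac, mul_one, pow_succ, pow_two, hb, one_mul]
    exact h3 ▸ pow_mem hw 3
  have hzH : a * c ∈ H := by
    have := mul_mem hbH hw
    rwa [hz, ← mul_assoc, hb, one_mul] at this
  have hy : c * d * c ∈ H := by
    have := mul_mem (mul_mem (inv_mem hzH) hdH) hzH
    rw [mul_inv_rev, inv_eq_of_mul_eq_one_left ha, inv_eq_of_mul_eq_one_left hc] at this
    have e : c * a * d * (a * c) = c * d * c := by
      rw [mul_assoc c a d, had.eq]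
      calc c * (d * a) * (a * c) = c * d * (a * a) * c := by group
      _ = c * d * c := by rw [ha, mul_one]
    rwa [e] at this
  rw [braid_of_three hc hd hcd] at hy
  have hcH : c ∈ H := by
    have := mul_mem (mul_mem hdH hy) hdH
    rwa [show d * (d * c * d) * d = (d * d) * c * (d * d) by group, hd, one_mul, mul_one] at this
  refine ⟨?_, hbH, hcH⟩
  have := mul_mem hzH hcH
  rwa [mul_assoc, hc, mul_one] at this

/-- The argument for type D₄, with centre `b`. -/
theorem typeD {H : Subgroup W} {a b c d : W} (ha : a * a = 1) (hb : b * b = 1) (hc : c * c = 1)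
    (hd : d * d = 1) (hcd : Commute c d) (had : Commute a d)
    (hab : (a * b) ^ 3 = 1) (hbd : (b * d) ^ 3 = 1) (hH : a * (b * (c * d)) ∈ H) (haH : a ∈ H)
    (hcH : c ∈ H) : b ∈ H ∧ d ∈ H := by
  have h : b * d ∈ H := by
    have := mul_mem (mul_mem haH hH) hcH
    rwa [show a * (a * (b * (c * d))) * c = (a * a) * b * (c * d * c) by group, ha, one_mul,
      hcd.eq, mul_assoc d, hc, mul_one] at this
  have hy : d * (a * b * a) * d ∈ H := by
    have h1 := mul_mem (mul_mem (inv_mem h) haH) h
    rw [mul_inv_rev, inv_eq_of_mul_eq_one_left hb, inv_eq_of_mul_eq_one_left hd] at h1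
    rwa [show d * b * a * (b * d) = d * (b * a * b) * d by group,
      ← braid_of_three ha hb hab] at h1
  have hdbd : d * b * d ∈ H := by
    have := mul_mem (mul_mem haH hy) haH
    rwa [show a * (d * (a * b * a) * d) * a = (a * d) * (a * b * a) * (d * a) by group, had.eq,
      ← had.eq, show a * d * (a * b * a) * (a * d) = a * (d * a) * b * (a * a) * d by group,
      ← had.eq, ← mul_assoc a a d, ha, one_mul, mul_one] at this
  have hdH : d ∈ H := by
    have := mul_mem h hdbd
    rw [show b * d * (d * b * d) = b * (d * d) * b * d by group, hd, mul_one, hb, one_mul] at this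
    exact this
  refine ⟨?_, hdH⟩
  have := mul_mem h hdH
  rwa [mul_assoc, hd, mul_one] at this

end Cfsg.Agent.H29.CoxGen
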