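import Cfsg.Agent.H29.Dickson.Intersect
import Cfsg.Agent.H29.Dickson.Exceptions
import Cfsg.Prelude.Def_OddOrderLocal

set_option autoImplicit false

/-!
Hall `{2,3}`-subgroups of `PSL₂(F)`.
-/

namespace CfsgLib.H29.HallTwoThree

open Matrix OnePoint MulAction CfsgLib.H29.Dickson
open scoped OnePoint

/-- The `{2,3}`-part. -/
def part (n : ℕ) : ℕ := 2 ^ n.factorization 2 * 3 ^ n.factorization 3

theorem part_mul {a b : ℕ} (ha : a ≠ 0) (hb : b ≠ 0) : part (a * b) = part a * part b := by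
  simp only [part, Nat.factorization_mul ha hb, Finsupp.add_apply, pow_add]; ring

theorem part_of_coprime {a : ℕ} (h2 : ¬ 2 ∣ a) (h3 : ¬ 3 ∣ a) : part a = 1 := by
  simp [part, Nat.factorization_eq_zero_of_not_dvd h2, Nat.factorization_eq_zero_of_not_dvd h3]

theorem part_eq_self {c : ℕ} (hc : c ≠ 0) (h : ∀ r : ℕ, r.Prime → r ∣ c → r = 2 ∨ r = 3) :
    part c = c := by
  refine Nat.eq_of_factorization_eq (by unfold part; positivity) hc fun r => ?_
  rw [part, Nat.factorization_mul (by positivity) (by positivity), Finsupp.add_apply,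
    Nat.prime_two.factorization_pow, Nat.prime_three.factorization_pow, Finsupp.single_apply,
    Finsupp.single_apply]
  by_cases h2 : r = 2
  · subst h2; simp
  by_cases h3 : r = 3
  · subst h3; simp
  rw [if_neg (Ne.symm h2), if_neg (Ne.symm h3), add_zero]
  by_cases hr : r.Prime
  · rw [Nat.factorization_eq_zero_of_not_dvd]
    intro hd
    rcases h r hr hd with e | e <;> contradiction
  · rw [Nat.factorization_eq_zero_of_not_prime _ hr]

theorem part_dvd {n : ℕ} (hn : n ≠ 0) : part n ∣ n := by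
  refine Nat.Coprime.mul_dvd_of_dvd_of_dvd ?_ (Nat.ordProj_dvd n 2) (Nat.ordProj_dvd n 3)
  exact Nat.Coprime.pow _ _ (by norm_num)

theorem isPiHall_iff {G : Type*} [Group G] [Finite G] (H : Subgroup G) :
    Cfsg.IsPiHall ({2, 3} : Set ℕ) H ↔ Nat.card H = part (Nat.card G) := by
  have hc : Nat.card H ≠ 0 := Nat.card_pos.ne'
  have hi : H.index ≠ 0 := Subgroup.index_ne_zero_of_finite
  have hG := H.card_mul_index
  constructor
  · rintro ⟨h1, h2⟩
    rw [← hG, part_mul hc hi, part_eq_self hc (fun r hr hd => by simpa using h1 r hr hd),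
      part_of_coprime (h2 2 Nat.prime_two (by simp)) (h2 3 Nat.prime_three (by simp)), mul_one]
  · intro h
    have hcP : ∀ r : ℕ, r.Prime → r ∣ Nat.card H → r = 2 ∨ r = 3 := by
      intro r hr hd
      rw [h, part] at hd
      rcases hr.dvd_mul.mp hd with e | e
      · exact Or.inl ((Nat.prime_dvd_prime_iff_eq hr Nat.prime_two).mp (hr.dvd_of_dvd_pow e))
      · exact Or.inr ((Nat.prime_dvd_prime_iff_eq hr Nat.prime_three).mp (hr.dvd_of_dvd_pow e))
    refine ⟨fun r hr hd => by simpa using hcP r hr hd, fun r hr hr' hd => ?_⟩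
    have h' : part H.index = 1 := by
      rw [← hG, part_mul hc hi, part_eq_self hc hcP] at h
      exact (Nat.mul_eq_left hc).mp h.symm
    have hpos := hr.factorization_pos_of_dvd hi hd
    rw [part] at h'
    rcases hr' with rfl | rfl
    · have h1 := Nat.eq_one_of_mul_eq_one_right h'
      rw [Nat.pow_eq_one] at h1
      omega
    · have h1 := Nat.eq_one_of_mul_eq_one_left h'
      rw [Nat.pow_eq_one] at h1
      omega

theorem dihedral_subgroup {k c m : ℕ} [NeZero c] [NeZero k] (h : c * m = k) :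
    ∃ H : Subgroup (DihedralGroup k), Nat.card H = 2 * c := by
  let g : ZMod c →+ ZMod k := ZMod.lift c ⟨zmultiplesHom _ (m : ZMod k), by
    rw [zmultiplesHom_apply, natCast_zsmul, nsmul_eq_mul, ← Nat.cast_mul, h, ZMod.natCast_self]⟩
  have hg : Function.Injective g := by
    refine (injective_iff_map_eq_zero g).mpr fun a ha => ?_
    have e : g a = ((a.val * m : ℕ) : ZMod k) := by
      conv_lhs => rw [← ZMod.natCast_zmod_val a]
      simp only [g]
      rw [← Int.cast_natCast (R := ZMod c), ZMod.lift_coe, zmultiplesHom_apply, natCast_zsmul,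
        nsmul_eq_mul, Nat.cast_mul]
    rw [e, CharP.cast_eq_zero_iff (ZMod k) k] at ha
    exact (ZMod.val_eq_zero a).mp (Nat.eq_zero_of_dvd_of_lt
      (Nat.dvd_of_mul_dvd_mul_right (Nat.pos_of_ne_zero fun e0 => NeZero.ne k (by rw [← h, e0, mul_zero]))
        (h ▸ ha)) a.val_lt)
  let φ : DihedralGroup c →* DihedralGroup k := MonoidHom.mk'
    (fun | .r i => .r (g i) | .sr i => .sr (g i))
    (by rintro (i | i) (j | j) <;> simp)
  have hφ : Function.Injective φ := by
    rintro (i | i) (j | j) e <;>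
      simp only [φ, MonoidHom.mk'_apply, DihedralGroup.r.injEq, DihedralGroup.sr.injEq,
        reduceCtorEq] at e <;>
      rw [hg e]
  exact ⟨φ.range, by rw [← Nat.card_congr (MonoidHom.ofInjective hφ).toEquiv, DihedralGroup.nat_card]⟩

variable {F : Type*} [Field F] [Fintype F] (p : ℕ) [Fact p.Prime] [CharP F p]

theorem hall_iff (hp : 5 ≤ p) :
    (∃ H : Subgroup (P2 F), H ≤ W F ∧ Nat.card H = part (Nat.card (W F))) ↔
      (3 ∣ Fintype.card F - 1 ∧ Fintype.card F % 4 = 1) ∨
      (3 ∣ Fintype.card F + 1 ∧ Fintype.card F % 4 = 3) ∨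
      part (Fintype.card F ^ 2 - 1) = 24 ∨ part (Fintype.card F ^ 2 - 1) = 48 := by
  classical
  have := finite_P2 (F := F)
  obtain ⟨n, hn, hq⟩ := exists_deg (F := F) p
  have hpp := (Fact.out : p.Prime)
  have h2 : (2 : F) ≠ 0 := fun h => by
    have := Nat.le_of_dvd two_pos ((CharP.cast_eq_zero_iff F p 2).mp (by exact_mod_cast h))
    omega
  set q := Fintype.card F with hqdef
  have hq2 : ¬ 2 ∣ q := fun h => by
    rw [hq] at h
    have := (Nat.prime_dvd_prime_iff_eq Nat.prime_two hpp).mp (Nat.prime_two.dvd_of_dvd_pow h)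
    omega
  have hq3 : ¬ 3 ∣ q := fun h => by
    rw [hq] at h
    have := (Nat.prime_dvd_prime_iff_eq Nat.prime_three hpp).mp (Nat.prime_three.dvd_of_dvd_pow h)
    omega
  have hq5 : 5 ≤ q := hq ▸ le_trans hp (Nat.le_self_pow hn.ne' p)
  have hfac : q ^ 2 - 1 = (q - 1) * (q + 1) := by
    rw [mul_comm]; simpa using Nat.sq_sub_sq q 1
  have hn0 : q ^ 2 - 1 ≠ 0 := by
    rw [hfac]; exact Nat.mul_ne_zero (by omega) (by omega)
  have hW := card_W_two h2
  have hN0 : Nat.card (W F) ≠ 0 := Nat.card_pos.ne'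
  have hpart : part (Nat.card (W F)) * 2 = part (q ^ 2 - 1) := by
    have e := congrArg part hW
    rw [part_mul hN0 two_ne_zero, part_mul (by omega) hn0, part_of_coprime hq2 hq3, one_mul] at e
    rw [show part 2 = 2 from part_eq_self two_ne_zero (fun r hr hd =>
      Or.inl ((Nat.prime_dvd_prime_iff_eq hr Nat.prime_two).mp hd))] at e
    exact e
  set P := part (q ^ 2 - 1) with hP
  have hfPa : ∀ k, 2 ^ k ∣ P → 2 ^ k ∣ q ^ 2 - 1 := fun k h => h.trans (part_dvd hn0)
  have h8 : 2 ^ 3 ∣ P := by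
    refine Dvd.dvd.mul_right (Nat.pow_dvd_pow 2 ?_) _
    refine (Nat.prime_two.pow_dvd_iff_le_factorization hn0).mp ?_
    rw [hfac]
    have h4 : 4 ∣ q - 1 ∨ 4 ∣ q + 1 := by omega
    rcases h4 with h4 | h4
    · have := Nat.mul_dvd_mul h4 (show 2 ∣ q + 1 by omega); exact this
    · have := Nat.mul_dvd_mul (show 2 ∣ q - 1 by omega) h4; exact this
  have h3 : 3 ∣ P := by
    refine Dvd.dvd.mul_left (dvd_pow_self 3 ?_) _
    refine (Nat.prime_three.factorization_pos_of_dvd hn0 ?_).ne'
    rw [hfac]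
    rcases (show q % 3 = 1 ∨ q % 3 = 2 by omega) with h | h
    · exact (show 3 ∣ q - 1 by omega).mul_right _
    · exact (show 3 ∣ q + 1 by omega).mul_left _
  constructor
  · rintro ⟨H, hHW, hH⟩
    have hH2 : Nat.card H * 2 = P := by rw [hH, hpart]
    have hHp : ¬ p ∣ Nat.card H := by
      intro h
      have hd : p ∣ P := hH2 ▸ h.mul_right 2
      rcases hpp.dvd_mul.mp hd with e | e
      · have := (Nat.prime_dvd_prime_iff_eq hpp Nat.prime_two).mp (hpp.dvd_of_dvd_pow e); omega
      · have := (Nat.prime_dvd_prime_iff_eq hpp Nat.prime_three).mp (hpp.dvd_of_dvd_pow e); omega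
    have h4H : 4 ∣ Nat.card H := by
      have h' : 2 * 4 ∣ 2 * Nat.card H := by rw [mul_comm 2 (Nat.card H), hH2]; exact h8
      exact Nat.dvd_of_mul_dvd_mul_left two_pos h'
    have h3H : 3 ∣ Nat.card H :=
      (Nat.Coprime.dvd_of_dvd_mul_right (by norm_num) (hH2 ▸ h3 : 3 ∣ Nat.card H * 2))
    have nobig : ∀ e, (e = q - 1 ∨ e = q + 1) → ¬ P ∣ e := by
      intro e he hd
      have h1 : 2 ^ ((q ^ 2 - 1).factorization 2) ∣ e := (dvd_mul_right _ _).trans hd
      have h2' : 2 ^ ((q ^ 2 - 1).factorization 2 + 1) ∣ q ^ 2 - 1 := by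
        rw [pow_succ, hfac]
        rw [hfac] at h1
        rcases he with rfl | rfl
        · exact Nat.mul_dvd_mul h1 (show 2 ∣ q + 1 by omega)
        · rw [mul_comm (q - 1)] at *
          exact Nat.mul_dvd_mul h1 (show 2 ∣ q - 1 by omega)
      have := (Nat.prime_two.pow_dvd_iff_le_factorization hn0).mp h2'
      omega
    cases subKind p H with
    | borel x h =>
      exfalso
      have hd : Nat.card H ∣ Nat.card ↥(stabilizer (P2 F) x ⊓ W F) :=
        Subgroup.card_dvd_of_le (le_inf (fun g hg => mem_stabilizer_iff.mpr (h g hg)) hHW)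
      have hs := card_stab_W (F := F) x
      rw [gcd_eq_two h2] at hs
      have hd' : P ∣ q * (q - 1) := by rw [← hH2, ← hs]; exact Nat.mul_dvd_mul_right hd 2
      refine nobig _ (Or.inl rfl) (Nat.Coprime.dvd_of_dvd_mul_left ?_ hd')
      refine Nat.Coprime.mul_left (Nat.Coprime.pow_left _ ?_) (Nat.Coprime.pow_left _ ?_)
      · exact Nat.prime_two.coprime_iff_not_dvd.mpr hq2
      · exact Nat.prime_three.coprime_iff_not_dvd.mpr hq3
    | cyclic a b c hc hc1 hab hle hp' =>
      exfalso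
      obtain ⟨e, D, he⟩ : ∃ e, TorusData a b e ∧ (e = q - 1 ∨ e = q + 1) :=
        (torus_of_fixed hc1 hab (hle hc).1 (hle hc).2).elim (fun h => ⟨_, h, Or.inl rfl⟩)
          (fun h => ⟨_, h, Or.inr rfl⟩)
      refine nobig e he ?_
      rw [← hH2, ← D.special.1, gcd_eq_two h2, mul_comm]
      exact Nat.mul_dvd_mul_left 2 (Subgroup.card_dvd_of_le (le_inf hle hHW))
    | dih a b c hc hc1 hab hcab hle m hm hord hmc e =>
      obtain ⟨k, D, hk⟩ : ∃ k, TorusData a b k ∧ (k = q - 1 ∨ k = q + 1) :=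
        (torus_of_fixed hc1 hab hcab.1 hcab.2).elim (fun h => ⟨_, h, Or.inl rfl⟩)
          (fun h => ⟨_, h, Or.inr rfl⟩)
      obtain ⟨h1, h2', -⟩ := D.special
      rw [gcd_eq_two h2] at h1
      have hd : Nat.card H ∣ k := by
        have := Subgroup.card_dvd_of_le (le_inf hle hHW)
        rwa [h2', h1] at this
      have h4 := h4H.trans hd
      have h3' := h3H.trans hd
      rcases hk with rfl | rfl
      · exact Or.inl ⟨h3', by omega⟩
      · exact Or.inr (Or.inl ⟨h3', by omega⟩)
    | a4 hc hp' e => exact Or.inr (Or.inr (Or.inl (by rw [← hH2, hc])))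
    | s4 hc hp' e => exact Or.inr (Or.inr (Or.inr (by rw [← hH2, hc])))
    | a5 hc hp' e =>
      exfalso
      have h5 : 5 ∣ P := by rw [← hH2, hc]; norm_num
      rcases (Nat.Prime.dvd_mul (by norm_num)).mp h5 with e | e
      · have := (Nat.prime_dvd_prime_iff_eq (by norm_num) Nat.prime_two).mp
          (Nat.Prime.dvd_of_dvd_pow (by norm_num) e)
        omega
      · have := (Nat.prime_dvd_prime_iff_eq (by norm_num) Nat.prime_three).mp
          (Nat.Prime.dvd_of_dvd_pow (by norm_num) e)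
        omega
    | pgl γ L h | psl γ L h =>
      exfalso
      refine hHp ?_
      rw [← Subgroup.card_map_of_injective (K := H) (f := (MulAut.conj γ).toMonoidHom)
        (MulAut.conj γ).injective, h]
      obtain ⟨a, m, ha, -, hL, -, -⟩ := subfield_card p L
      first
        | rw [card_PL, hL]; exact (dvd_pow_self p ha.ne').mul_right _
        | refine (Nat.Coprime.dvd_of_dvd_mul_right ?_
            (show p ∣ Nat.card ↥(PS L) * Nat.gcd 2 (Nat.card L - 1) by
              rw [card_PS_mul, hL]; exact (dvd_pow_self p ha.ne').mul_right _))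
          exact hpp.coprime_iff_not_dvd.mpr fun hd => by
            have := Nat.le_of_dvd two_pos (hd.trans (Nat.gcd_dvd_left _ _)); omega
  · intro hcases
    suffices h : ∃ H : Subgroup (P2 F), H ≤ W F ∧ Nat.card H * 2 = P by
      obtain ⟨H, hH, hc⟩ := h
      exact ⟨H, hH, Nat.eq_of_mul_eq_mul_right two_pos (hc.trans hpart.symm)⟩
    have torus : ∀ {a b : OnePoint (KK F)} {e : ℕ}, TorusData a b e → 3 ∣ e → 4 ∣ e →
        (e = q - 1 ∨ e = q + 1) → ∃ H : Subgroup (P2 F), H ≤ W F ∧ Nat.card H * 2 = P := by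
      intro a b e D h3e h4e he
      obtain ⟨h1, h2', ⟨eD⟩⟩ := D.special
      rw [gcd_eq_two h2] at h1
      obtain ⟨o, ho, ho2, ho3⟩ : ∃ o, o * e = q ^ 2 - 1 ∧ o % 4 = 2 ∧ ¬ 3 ∣ o := by
        rcases he with rfl | rfl
        · exact ⟨q + 1, by rw [hfac, mul_comm], by omega, by omega⟩
        · exact ⟨q - 1, hfac.symm, by omega, by omega⟩
      have he0 : e ≠ 0 := by omega
      have hPe : P = 2 * part e := by
        rw [hP, ← ho, part_mul (by omega) he0]
        congr 1
        obtain ⟨t, rfl⟩ : 2 ∣ o := by omega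
        rw [part_mul two_ne_zero (by omega), part_of_coprime (a := t) (by omega)
          (fun h => ho3 (h.mul_left 2)), mul_one,
          part_eq_self two_ne_zero (fun r hr hd =>
            Or.inl ((Nat.prime_dvd_prime_iff_eq hr Nat.prime_two).mp hd))]
      obtain ⟨c, hc⟩ : 2 ∣ part e :=
        Dvd.dvd.mul_right (dvd_pow_self 2 (Nat.prime_two.factorization_pos_of_dvd he0 (by omega)).ne') _
      have hck : c ∣ Nat.card ↥(T1 a b ⊓ W F) := by
        refine Nat.dvd_of_mul_dvd_mul_left two_pos ?_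
        rw [h1, ← hc]; exact part_dvd he0
      obtain ⟨m, hm⟩ := hck
      haveI : NeZero c := ⟨fun h => by rw [h, zero_mul] at hm; omega⟩
      haveI : NeZero (Nat.card ↥(T1 a b ⊓ W F)) := ⟨Nat.card_pos.ne'⟩
      obtain ⟨K, hK⟩ := dihedral_subgroup hm.symm
      refine ⟨K.map ((T2 a b ⊓ W F).subtype.comp eD.symm.toMonoidHom), ?_, ?_⟩
      · rintro _ ⟨u, -, rfl⟩; exact (eD.symm u).2.2
      · rw [Subgroup.card_map_of_injective
          (f := (T2 a b ⊓ W F).subtype.comp eD.symm.toMonoidHom)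
          ((T2 a b ⊓ W F).subtype_injective.comp eD.symm.injective), hK, hPe, hc]
        ring
    rcases hcases with ⟨h3', h4⟩ | ⟨h3', h4⟩ | h | h
    · obtain ⟨a, b, D⟩ := exists_torus_split (F := F)
      exact torus D h3' (by omega) (Or.inl rfl)
    · obtain ⟨a, b, D⟩ := exists_torus_nonsplit (F := F)
      exact torus D h3' (by omega) (Or.inr rfl)
    · obtain ⟨⟨A, hA, eA⟩, -⟩ := exists_A4_S4 (F := F) p h2
      exact ⟨A, hA, by rw [card_A4 eA, h]⟩
    · obtain ⟨⟨A, -, eA⟩, hA⟩ := exists_A4_S4 (F := F) p h2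
      obtain ⟨N, -, eN⟩ := hA A eA
      refine ⟨N, ((conj_prime p h2).2 N eN).1.mpr ?_, by rw [card_S4 eN, h]⟩
      rw [FiniteField.isSquare_two_iff, ← hqdef]
      have h16 : 2 ^ 4 ∣ q ^ 2 - 1 := hfPa 4 (h ▸ by norm_num)
      have hmod : (q ^ 2) % 16 = (q % 16) ^ 2 % 16 := Nat.pow_mod q 2 16
      have hq16 : q % 16 = 3 ∨ q % 16 = 5 ∨ q % 16 = 11 ∨ q % 16 = 13 → False := by
        intro hc
        rcases hc with e | e | e | e <;> rw [e] at hmod <;> omega
      rcases (show q % 16 = 1 ∨ q % 16 = 3 ∨ q % 16 = 5 ∨ q % 16 = 7 ∨ q % 16 = 9 ∨ q % 16 = 11 ∨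
        q % 16 = 13 ∨ q % 16 = 15 by omega) with e | e | e | e | e | e | e | e <;>
        first
          | (constructor <;> omega)
          | exact (hq16 (by omega)).elim

theorem hall_iff_PSL (hp : 5 ≤ p) :
    (∃ H : Subgroup (Matrix.ProjectiveSpecialLinearGroup (Fin 2) F),
      Cfsg.IsPiHall ({2, 3} : Set ℕ) H) ↔
      ∃ H : Subgroup (P2 F), H ≤ W F ∧ Nat.card H = part (Nat.card (W F)) := by
  have := finite_P2 (F := F)
  have hinj := Matrix.ProjectiveSpecialLinearGroup.toPGL_injective (n := Fin 2) (R := F)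
  set f := Matrix.ProjectiveSpecialLinearGroup.toPGL (n := Fin 2) (R := F)
  have : Finite (Matrix.ProjectiveSpecialLinearGroup (Fin 2) F) := Finite.of_injective f hinj
  have hc : Nat.card (Matrix.ProjectiveSpecialLinearGroup (Fin 2) F) = Nat.card (W F) := by
    rw [← range_toPGL]; exact Nat.card_congr (MonoidHom.ofInjective hinj).toEquiv
  constructor
  · rintro ⟨H, hH⟩
    rw [isPiHall_iff] at hH
    refine ⟨H.map f, ?_, ?_⟩
    · rw [← range_toPGL]; exact Subgroup.map_le_range f H
    · rw [Subgroup.card_map_of_injective hinj, hH, hc]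
  · rintro ⟨H, hle, hH⟩
    refine ⟨H.comap f, (isPiHall_iff _).mpr ?_⟩
    rw [← Subgroup.card_map_of_injective hinj, Subgroup.map_comap_eq, range_toPGL,
      inf_eq_right.mpr hle, hH, hc]

end CfsgLib.H29.HallTwoThree
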