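import Mathlib

/-! Semilinear maps over algebraically closed fields have a spanning set of fixed vectors. -/

set_option autoImplicit false

namespace Cfsg.Agent.H29.Lang

open Polynomial

variable {K : Type*} [Field K] [IsAlgClosed K]

theorem exists_twist_root (q k : ℕ) (hq : 1 < q) (a : ℕ → K) (ha : a 0 ≠ 0) :
    ∃ c : ℕ → K, c k ≠ 0 ∧ c 0 = a 0 * c k ^ q ∧
      ∀ i < k, c (i + 1) = c i ^ q + a (i + 1) * c k ^ q := by
  let P : ℕ → K[X] := fun i => Nat.rec (C (a 0) * X ^ q) (fun j r => r ^ q + C (a (j + 1)) * X ^ q) i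
  have P0 : P 0 = C (a 0) * X ^ q := rfl
  have Ps : ∀ j, P (j + 1) = P j ^ q + C (a (j + 1)) * X ^ q := fun _ => rfl
  have hdeg : ∀ i, (P i).natDegree = q ^ (i + 1) := by
    intro i
    induction i with
    | zero => rw [P0, natDegree_C_mul_X_pow q _ ha]; simp
    | succ i ih =>
      rw [Ps, natDegree_add_eq_left_of_natDegree_lt, natDegree_pow, ih, pow_succ' q (i + 1)]
      rw [natDegree_pow, ih]
      calc (C (a (i + 1)) * X ^ q).natDegree ≤ q := natDegree_C_mul_X_pow_le _ _
      _ < q * q ^ (i + 1) := lt_mul_of_one_lt_right (by omega) (Nat.one_lt_pow (by omega) hq)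
  have hdvd : ∀ i, X ^ q ∣ P i := by
    intro i
    induction i with
    | zero => exact dvd_mul_left _ _
    | succ i ih => exact dvd_add (dvd_pow ih (by omega)) (dvd_mul_left _ _)
  obtain ⟨R, hR⟩ := hdvd k
  have hR0 : R ≠ 0 := by
    intro h
    have := hdeg k
    rw [hR, h, mul_zero, natDegree_zero] at this
    exact absurd this.symm (pow_ne_zero _ (by omega))
  set S := X ^ (q - 1) * R - 1 with hS
  have hSd : 0 < S.natDegree := by
    have h : 0 < (X ^ (q - 1) * R).natDegree := by
      rw [natDegree_mul (pow_ne_zero _ X_ne_zero) hR0, natDegree_X_pow]; omega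
    rw [hS, natDegree_sub_eq_left_of_natDegree_lt (by rwa [natDegree_one])]; exact h
  obtain ⟨t, ht⟩ := IsAlgClosed.exists_root S (by
    intro h
    have := natDegree_eq_of_degree_eq_some (n := 0) (by simpa using h)
    omega)
  have ht0 : t ≠ 0 := by
    rintro rfl
    simp [hS, IsRoot, zero_pow (by omega : q - 1 ≠ 0)] at ht
  have hk : (P k).eval t = t := by
    have h1 : t ^ (q - 1) * R.eval t = 1 := by
      simpa [hS, IsRoot, sub_eq_zero] using ht
    rw [hR, eval_mul, eval_pow, eval_X, show q = q - 1 + 1 by omega, pow_succ']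
    rw [mul_assoc, h1, mul_one]
  refine ⟨fun i => (P i).eval t, by simpa [hk] using ht0, ?_, fun i _ => ?_⟩
  · simp only [hk, P0, eval_mul, eval_C, eval_pow, eval_X]
  · simp only [hk, Ps, eval_add, eval_mul, eval_C, eval_pow, eval_X]

theorem exists_sub_pow (q : ℕ) (hq : 1 < q) (α : K) : ∃ β : K, β ^ q - β = α := by
  obtain ⟨β, hβ⟩ := IsAlgClosed.exists_root (X ^ q - (X + C α) : K[X]) (by
    intro h
    have hd : (X ^ q - (X + C α) : K[X]).natDegree = q := by
      rw [natDegree_sub_eq_left_of_natDegree_lt, natDegree_X_pow]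
      rw [natDegree_X_pow, natDegree_X_add_C]; exact hq
    have := natDegree_eq_of_degree_eq_some (n := 0) (by simpa using h)
    omega)
  refine ⟨β, ?_⟩
  simp [IsRoot] at hβ
  linear_combination hβ

variable {V : Type*} [AddCommGroup V] [Module K V] [FiniteDimensional K V]

theorem fixed_span (q : ℕ) (hq : 1 < q) (F : V →+ V)
    (hF : ∀ (c : K) (v : V), F (c • v) = c ^ q • F v) (hinj : Function.Injective F) :
    Submodule.span K {v | F v = v} = ⊤ := by
  classical
  by_contra hne
  set U := Submodule.span K {v | F v = v} with hU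
  obtain ⟨v, -, hv⟩ := SetLike.exists_of_lt (lt_top_iff_ne_top.mpr hne)
  have hUpre : ∀ u ∈ U, ∃ z ∈ U, F z = u := by
    intro u hu
    induction hu using Submodule.span_induction with
    | mem x hx => exact ⟨x, Submodule.subset_span hx, hx⟩
    | zero => exact ⟨0, zero_mem _, map_zero F⟩
    | add x y _ _ hx hy =>
      obtain ⟨a, ha, rfl⟩ := hx; obtain ⟨b, hb, rfl⟩ := hy
      exact ⟨a + b, add_mem ha hb, map_add F a b⟩
    | smul c x _ hx =>
      obtain ⟨a, ha, rfl⟩ := hx
      obtain ⟨b, rfl⟩ := IsAlgClosed.exists_pow_nat_eq c (by omega : 0 < q)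
      exact ⟨b • a, U.smul_mem b ha, hF b a⟩
  have hFU : ∀ u ∈ U, F u ∈ U := by
    intro u hu
    induction hu using Submodule.span_induction with
    | mem x hx => exact Submodule.subset_span (show F (F x) = F x by rw [show F x = x from hx, show F x = x from hx])
    | zero => simp
    | add x y _ _ hx hy => rw [map_add]; exact add_mem hx hy
    | smul c x _ hx => rw [hF]; exact U.smul_mem _ hx
  have hUF : ∀ z, F z ∈ U → z ∈ U := by
    intro z hz
    obtain ⟨z', hz', he⟩ := hUpre _ hz
    exact hinj he ▸ hz'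
  have hArt : ∀ u ∈ U, ∃ z ∈ U, F z - z = u := by
    intro u hu
    induction hu using Submodule.span_induction with
    | mem x hx =>
      obtain ⟨β, hβ⟩ := exists_sub_pow (K := K) q hq 1
      refine ⟨β • x, U.smul_mem _ (Submodule.subset_span hx), ?_⟩
      rw [hF, show F x = x from hx, ← sub_smul, hβ, one_smul]
    | zero => exact ⟨0, zero_mem _, by simp⟩
    | add x y _ _ hx hy =>
      obtain ⟨a, ha, rfl⟩ := hx; obtain ⟨b, hb, rfl⟩ := hy
      exact ⟨a + b, add_mem ha hb, by rw [map_add]; abel⟩
    | smul c x hxU hx =>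
      -- reduce to fixed generators
      clear hx
      induction hxU using Submodule.span_induction generalizing c with
      | mem x hx =>
        obtain ⟨β, hβ⟩ := exists_sub_pow (K := K) q hq c
        refine ⟨β • x, U.smul_mem _ (Submodule.subset_span hx), ?_⟩
        rw [hF, show F x = x from hx, ← sub_smul, hβ]
      | zero => exact ⟨0, zero_mem _, by simp⟩
      | add x y _ _ hx hy =>
        obtain ⟨a, ha, ha'⟩ := hx c; obtain ⟨b, hb, hb'⟩ := hy c
        exact ⟨a + b, add_mem ha hb, by rw [map_add, smul_add, ← ha', ← hb']; abel⟩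
      | smul d x _ hx =>
        obtain ⟨a, ha, ha'⟩ := hx (c * d)
        exact ⟨a, ha, by rw [ha', mul_smul]⟩
  let W : ℕ → Submodule K V := fun m =>
    U ⊔ Submodule.span K ((fun i => F^[i] v) '' {i | i < m})
  have hex : ∃ m, F^[m] v ∈ W m := by
    by_contra hno
    push_neg at hno
    have hlt : ∀ m, W m < W (m + 1) := by
      intro m
      refine lt_of_le_of_ne (sup_le_sup_left (Submodule.span_mono
        (Set.image_mono fun i (hi : i < m) => Nat.lt_succ_of_lt hi)) _) fun h => hno m ?_
      rw [h]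
      exact Submodule.mem_sup_right (Submodule.subset_span ⟨m, Nat.lt_succ_self m, rfl⟩)
    have hgrow : ∀ m, m ≤ Module.finrank K (W m) := by
      intro m
      induction m with
      | zero => exact Nat.zero_le _
      | succ m ih => exact Nat.lt_of_le_of_lt ih (Submodule.finrank_lt_finrank_of_lt (hlt m))
    have := (hgrow (Module.finrank K V + 1)).trans (Submodule.finrank_le _)
    omega
  have hmin := Nat.find_spec hex
  set m := Nat.find hex with hm
  have hm0 : m ≠ 0 := by
    intro h
    rw [h] at hmin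
    simp [W] at hmin
    exact hv hmin
  obtain ⟨k, hk⟩ := Nat.exists_eq_succ_of_ne_zero hm0
  rw [hk] at hmin
  have hrepr : ∀ j, ∀ x ∈ W j, ∃ u ∈ U, ∃ a : ℕ → K,
      x = u + ∑ i ∈ Finset.range j, a i • F^[i] v := by
    intro j x hx
    obtain ⟨u, hu, s, hs, rfl⟩ := Submodule.mem_sup.mp hx
    refine ⟨u, hu, ?_⟩
    suffices h : ∀ y ∈ Submodule.span K ((fun i => F^[i] v) '' {i | i < j}),
        ∃ a : ℕ → K, y = ∑ i ∈ Finset.range j, a i • F^[i] v by
      obtain ⟨a, ha⟩ := h s hs; exact ⟨a, by rw [ha]⟩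
    intro y hy
    induction hy using Submodule.span_induction with
    | mem x hx =>
      obtain ⟨i, hi, rfl⟩ := hx
      exact ⟨fun l => if l = i then 1 else 0, by
        simp [ite_smul, Finset.sum_ite_eq', show i < j from hi]⟩
    | zero => exact ⟨0, by simp⟩
    | add x y _ _ hx hy =>
      obtain ⟨a, ha⟩ := hx; obtain ⟨b, hb⟩ := hy
      exact ⟨a + b, by simp [ha, hb, add_smul, Finset.sum_add_distrib]⟩
    | smul c x _ hx =>
      obtain ⟨a, ha⟩ := hx
      exact ⟨c • a, by simp [ha, Finset.smul_sum, mul_smul]⟩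
  obtain ⟨u, hu, a, ha⟩ := hrepr _ _ hmin
  have hnot : ∀ z ∈ W k, F^[k] v ≠ z := by
    intro z hz he
    have : ¬ F^[k] v ∈ W k := Nat.find_min hex (by omega)
    exact this (he ▸ hz)
  have hWsum : ∀ (u : V) (b : ℕ → K), u ∈ U → u + ∑ i ∈ Finset.range k, b i • F^[i] v ∈ W k :=
    fun u b hu => add_mem (Submodule.mem_sup_left hu) (Submodule.sum_mem _ fun i hi =>
      Submodule.smul_mem _ _ (Submodule.mem_sup_right (Submodule.subset_span
        ⟨i, Finset.mem_range.mp hi, rfl⟩)))
  have ha0 : a 0 ≠ 0 := by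
    intro h0
    rw [Finset.sum_range_succ'] at ha
    simp only [h0, zero_smul, add_zero, Function.iterate_succ_apply'] at ha
    choose b hb using fun i => IsAlgClosed.exists_pow_nat_eq (a (i + 1)) (by omega : 0 < q)
    have hsum : F (∑ i ∈ Finset.range k, b i • F^[i] v) =
        ∑ i ∈ Finset.range k, a (i + 1) • F (F^[i] v) := by
      rw [map_sum]; exact Finset.sum_congr rfl fun i _ => by rw [hF, hb]
    have hzU : F^[k] v - ∑ i ∈ Finset.range k, b i • F^[i] v ∈ U := hUF _ (by
      rw [map_sub, ha, hsum, add_sub_cancel_right]; exact hu)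
    exact hnot _ (hWsum _ b hzU) (by abel)
  obtain ⟨c, hck, hc0, hcs⟩ := exists_twist_root q k hq a ha0
  set w := ∑ i ∈ Finset.range (k + 1), c i • F^[i] v with hw
  have hwU : F w - w ∈ U := by
    have h1 : F w = (∑ i ∈ Finset.range k, c i ^ q • F^[i + 1] v) + c k ^ q • F^[k + 1] v := by
      rw [hw, map_sum, Finset.sum_range_succ]
      simp [hF, Function.iterate_succ_apply']
    have h2 : F w - w = c k ^ q • u := by
      rw [h1, ha, hw, Finset.sum_range_succ' (fun i => c i • F^[i] v),
        Finset.sum_range_succ' (fun i => a i • F^[i] v), smul_add, smul_add, Finset.smul_sum,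
        smul_smul]
      have hs : ∑ i ∈ Finset.range k, c (i + 1) • F^[i + 1] v =
          (∑ i ∈ Finset.range k, c i ^ q • F^[i + 1] v) +
            ∑ i ∈ Finset.range k, c k ^ q • a (i + 1) • F^[i + 1] v := by
        rw [← Finset.sum_add_distrib]
        refine Finset.sum_congr rfl fun i hi => ?_
        rw [hcs i (Finset.mem_range.mp hi), add_smul, smul_smul, mul_comm (c k ^ q)]
      rw [hs, hc0, mul_comm (c k ^ q) (a 0)]
      abel
    rw [h2]; exact U.smul_mem _ hu
  obtain ⟨z, hz, hzw⟩ := hArt _ hwU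
  have hfix : F (w - z) = w - z := by
    rw [map_sub]
    calc F w - F z = (F w - w) - (F z - z) + (w - z) := by abel
    _ = w - z := by rw [hzw]; abel
  have hwmem : w ∈ U := by
    have h : w - z ∈ U := Submodule.subset_span hfix
    simpa using add_mem h hz
  have hsplit : F^[k] v = (c k)⁻¹ • (w - ∑ i ∈ Finset.range k, c i • F^[i] v) := by
    rw [hw, Finset.sum_range_succ, add_sub_cancel_left, smul_smul, inv_mul_cancel₀ hck, one_smul]
  refine hnot _ ?_ hsplit
  have := hWsum _ (fun i => - c i) hwmem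
  simp only [neg_smul, Finset.sum_neg_distrib, ← sub_eq_add_neg] at this
  exact Submodule.smul_mem _ _ this

end Cfsg.Agent.H29.Lang
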