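import Mathlib
import Cfsg.Prelude.Def_RootSubgroups

/-! SL₂ over a field as a special rank one group. -/

set_option autoImplicit false

namespace Cfsg.Agent.H29.RankOneSL

open Matrix

variable {k : Type*} [Field k]

def up (t : k) : Matrix.SpecialLinearGroup (Fin 2) k := ⟨!![1, t; 0, 1], by simp [det_fin_two]⟩
def lo (t : k) : Matrix.SpecialLinearGroup (Fin 2) k := ⟨!![1, 0; t, 1], by simp [det_fin_two]⟩

theorem up_val (t : k) : (up t : Matrix (Fin 2) (Fin 2) k) = !![1, t; 0, 1] := rfl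
theorem lo_val (t : k) : (lo t : Matrix (Fin 2) (Fin 2) k) = !![1, 0; t, 1] := rfl

theorem ext2 {g h : Matrix.SpecialLinearGroup (Fin 2) k} (h00 : g.1 0 0 = h.1 0 0)
    (h01 : g.1 0 1 = h.1 0 1) (h10 : g.1 1 0 = h.1 1 0) (h11 : g.1 1 1 = h.1 1 1) : g = h := by
  apply Matrix.SpecialLinearGroup.ext
  intro i j
  fin_cases i <;> fin_cases j <;> assumption

theorem up_mul (s t : k) : up s * up t = up (s + t) := by
  apply ext2 <;> simp [up_val, Matrix.SpecialLinearGroup.coe_mul, Matrix.mul_apply, Fin.sum_univ_two, add_comm]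

theorem lo_mul (s t : k) : lo s * lo t = lo (s + t) := by
  apply ext2 <;> simp [lo_val, Matrix.SpecialLinearGroup.coe_mul, Matrix.mul_apply, Fin.sum_univ_two, add_comm]

theorem up_inv (t : k) : (up t)⁻¹ = up (-t) := inv_eq_of_mul_eq_one_right (by
  rw [up_mul]; apply ext2 <;> simp [up_val])

theorem lo_inv (t : k) : (lo t)⁻¹ = lo (-t) := inv_eq_of_mul_eq_one_right (by
  rw [lo_mul]; apply ext2 <;> simp [lo_val])

theorem up_zero : up (0 : k) = 1 := by apply ext2 <;> simp [up_val]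
theorem lo_zero : lo (0 : k) = 1 := by apply ext2 <;> simp [lo_val]

theorem mem_upper {g : Matrix.SpecialLinearGroup (Fin 2) k} :
    g ∈ upperUnipotentSL2 k ↔ ∃ t, g = up t := by
  constructor
  · intro hg
    induction hg using Subgroup.closure_induction with
    | mem x hx => exact ⟨x.1 0 1, by apply ext2 <;> simp [up_val, hx.1, hx.2.1, hx.2.2]⟩
    | one => exact ⟨0, up_zero.symm⟩
    | mul x y _ _ hx hy =>
      obtain ⟨s, rfl⟩ := hx; obtain ⟨t, rfl⟩ := hy; exact ⟨s + t, up_mul s t⟩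
    | inv x _ hx => obtain ⟨s, rfl⟩ := hx; exact ⟨-s, up_inv s⟩
  · rintro ⟨t, rfl⟩
    exact Subgroup.subset_closure (by simp [up_val])

theorem mem_lower {g : Matrix.SpecialLinearGroup (Fin 2) k} :
    g ∈ lowerUnipotentSL2 k ↔ ∃ t, g = lo t := by
  constructor
  · intro hg
    induction hg using Subgroup.closure_induction with
    | mem x hx => exact ⟨x.1 1 0, by apply ext2 <;> simp [lo_val, hx.1, hx.2.1, hx.2.2]⟩
    | one => exact ⟨0, lo_zero.symm⟩
    | mul x y _ _ hx hy =>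
      obtain ⟨s, rfl⟩ := hx; obtain ⟨t, rfl⟩ := hy; exact ⟨s + t, lo_mul s t⟩
    | inv x _ hx => obtain ⟨s, rfl⟩ := hx; exact ⟨-s, lo_inv s⟩
  · rintro ⟨t, rfl⟩
    exact Subgroup.subset_closure (by simp [lo_val])

theorem conj_lo (r s : k) : ((up (-s) * lo r * up s : Matrix.SpecialLinearGroup (Fin 2) k) :
    Matrix (Fin 2) (Fin 2) k) = !![1 - s * r, -(s ^ 2 * r); r, r * s + 1] := by
  ext i j
  fin_cases i <;> fin_cases j <;> simp [up_val, lo_val, Matrix.SpecialLinearGroup.coe_mul, Matrix.mul_apply, Fin.sum_univ_two] <;> ring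

theorem conj_up (w t : k) : ((lo (-t) * up w * lo t : Matrix.SpecialLinearGroup (Fin 2) k) :
    Matrix (Fin 2) (Fin 2) k) = !![1 + w * t, w; -(t ^ 2 * w), 1 - t * w] := by
  ext i j
  fin_cases i <;> fin_cases j <;> simp [up_val, lo_val, Matrix.SpecialLinearGroup.coe_mul, Matrix.mul_apply, Fin.sum_univ_two] <;> ring

theorem flip_eq {t : k} (ht : t ≠ 0) (r : k) :
    up (-t⁻¹) * lo r * up t⁻¹ = lo (-t) * up (-(t⁻¹ ^ 2 * r)) * lo t := by
  apply Subtype.ext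
  rw [conj_lo, conj_up]
  ext i j
  fin_cases i <;> fin_cases j <;> simp <;> field_simp <;> ring

theorem flip_eq' {t : k} (ht : t ≠ 0) (r : k) :
    lo (-t⁻¹) * up r * lo t⁻¹ = up (-t) * lo (-(t⁻¹ ^ 2 * r)) * up t := by
  apply Subtype.ext
  rw [conj_lo, conj_up]
  ext i j
  fin_cases i <;> fin_cases j <;> simp <;> field_simp <;> ring

open Subgroup in
theorem mem_conjBy {G : Type*} [Group G] {A : Subgroup G} {g x : G} :
    x ∈ conjBy A g ↔ ∃ a ∈ A, g * a * g⁻¹ = x := by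
  simp [conjBy, Subgroup.mem_map]

theorem cond_left {t : k} (ht : t ≠ 0) :
    conjBy (lowerUnipotentSL2 k) (up t⁻¹)⁻¹ = conjBy (upperUnipotentSL2 k) (lo t)⁻¹ := by
  ext x
  simp only [mem_conjBy, mem_lower, mem_upper, inv_inv]
  constructor
  · rintro ⟨_, ⟨r, rfl⟩, rfl⟩
    exact ⟨_, ⟨-(t⁻¹ ^ 2 * r), rfl⟩, by rw [up_inv, lo_inv, flip_eq ht]⟩
  · rintro ⟨_, ⟨w, rfl⟩, rfl⟩
    refine ⟨_, ⟨-(t ^ 2 * w), rfl⟩, ?_⟩
    rw [up_inv, lo_inv, flip_eq ht]
    congr 2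
    congr 1
    field_simp

theorem cond_right {t : k} (ht : t ≠ 0) :
    conjBy (upperUnipotentSL2 k) (lo t⁻¹)⁻¹ = conjBy (lowerUnipotentSL2 k) (up t)⁻¹ := by
  ext x
  simp only [mem_conjBy, mem_lower, mem_upper, inv_inv]
  constructor
  · rintro ⟨_, ⟨r, rfl⟩, rfl⟩
    exact ⟨_, ⟨-(t⁻¹ ^ 2 * r), rfl⟩, by rw [up_inv, lo_inv, flip_eq' ht]⟩
  · rintro ⟨_, ⟨w, rfl⟩, rfl⟩
    refine ⟨_, ⟨-(t ^ 2 * w), rfl⟩, ?_⟩
    rw [up_inv, lo_inv, flip_eq' ht]
    congr 2
    congr 1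
    field_simp

theorem sup_eq_top : lowerUnipotentSL2 k ⊔ upperUnipotentSL2 k = ⊤ := by
  rw [eq_top_iff]
  intro g _
  have hl : ∀ t : k, lo t ∈ lowerUnipotentSL2 k ⊔ upperUnipotentSL2 k := fun t =>
    Subgroup.mem_sup_left (mem_lower.mpr ⟨t, rfl⟩)
  have hu : ∀ t : k, up t ∈ lowerUnipotentSL2 k ⊔ upperUnipotentSL2 k := fun t =>
    Subgroup.mem_sup_right (mem_upper.mpr ⟨t, rfl⟩)
  have key : ∀ g : Matrix.SpecialLinearGroup (Fin 2) k, g.1 1 0 ≠ 0 →
      g ∈ lowerUnipotentSL2 k ⊔ upperUnipotentSL2 k := by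
    intro g hc
    have hd : g.1 0 0 * g.1 1 1 - g.1 0 1 * g.1 1 0 = 1 := by
      rw [← det_fin_two]; exact g.2
    have : g = up ((g.1 0 0 - 1) / g.1 1 0) * lo (g.1 1 0) * up ((g.1 1 1 - 1) / g.1 1 0) := by
      apply ext2 <;> simp [up_val, lo_val, Matrix.SpecialLinearGroup.coe_mul, Matrix.mul_apply, Fin.sum_univ_two] <;> field_simp
      all_goals first | ring1 | linear_combination hd | linear_combination -hd

    rw [this]
    exact mul_mem (mul_mem (hu _) (hl _)) (hu _)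
  by_cases hc : g.1 1 0 = 0
  · have hd : g.1 0 0 * g.1 1 1 - g.1 0 1 * g.1 1 0 = 1 := by
      rw [← det_fin_two]; exact g.2
    have h : (lo 1 * g).1 1 0 = g.1 0 0 := by
      simp [lo_val, Matrix.SpecialLinearGroup.coe_mul, Matrix.mul_apply, Fin.sum_univ_two, hc]
    have hne : g.1 0 0 ≠ 0 := by
      intro h0; rw [h0, hc] at hd; simp at hd
    have := mul_mem (inv_mem (hl 1)) (key (lo 1 * g) (h ▸ hne))
    rwa [inv_mul_cancel_left] at this
  · exact key g hc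

theorem isRankOnePair : IsRankOnePair (lowerUnipotentSL2 k) (upperUnipotentSL2 k) := by
  have hcl : IsMulCommutative (lowerUnipotentSL2 k) := ⟨⟨fun a b => by
    obtain ⟨s, hs⟩ := mem_lower.mp a.2; obtain ⟨t, ht⟩ := mem_lower.mp b.2
    apply Subtype.ext; simp [hs, ht, lo_mul, add_comm]⟩⟩
  have hcu : IsMulCommutative (upperUnipotentSL2 k) := ⟨⟨fun a b => by
    obtain ⟨s, hs⟩ := mem_upper.mp a.2; obtain ⟨t, ht⟩ := mem_upper.mp b.2
    apply Subtype.ext; simp [hs, ht, up_mul, add_comm]⟩⟩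
  refine ⟨?_, ?_, ?_, ?_, ?_⟩
  · intro h
    have : lo (1 : k) ∈ upperUnipotentSL2 k := h ▸ mem_lower.mpr ⟨1, rfl⟩
    obtain ⟨t, ht⟩ := mem_upper.mp this
    simpa [lo_val, up_val] using congrArg (fun g : Matrix.SpecialLinearGroup (Fin 2) k => g.1 1 0) ht
  · let _ : CommGroup (lowerUnipotentSL2 k) := { mul_comm := hcl.is_comm.comm }
    infer_instance
  · let _ : CommGroup (upperUnipotentSL2 k) := { mul_comm := hcu.is_comm.comm }
    infer_instance
  · intro a ha ha1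
    obtain ⟨t, rfl⟩ := mem_lower.mp ha
    have ht : t ≠ 0 := fun h => ha1 (h ▸ lo_zero)
    refine ⟨up t⁻¹, mem_upper.mpr ⟨_, rfl⟩, fun h => ?_, cond_left ht⟩
    have := congrArg (fun g : Matrix.SpecialLinearGroup (Fin 2) k => g.1 0 1) h
    simp [up_val, ht] at this
  · intro a ha ha1
    obtain ⟨t, rfl⟩ := mem_upper.mp ha
    have ht : t ≠ 0 := fun h => ha1 (h ▸ up_zero)
    refine ⟨lo t⁻¹, mem_lower.mpr ⟨_, rfl⟩, fun h => ?_, cond_right ht⟩
    have := congrArg (fun g : Matrix.SpecialLinearGroup (Fin 2) k => g.1 1 0) h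
    simp [lo_val, ht] at this

theorem special {a b : Matrix.SpecialLinearGroup (Fin 2) k} (ha : a ∈ lowerUnipotentSL2 k) (ha1 : a ≠ 1)
    (hb : b ∈ upperUnipotentSL2 k) (hb1 : b ≠ 1)
    (h : conjBy (lowerUnipotentSL2 k) b⁻¹ = conjBy (upperUnipotentSL2 k) a⁻¹) :
    b⁻¹ * a * b = a⁻¹ * b⁻¹ * a := by
  obtain ⟨t, rfl⟩ := mem_lower.mp ha
  obtain ⟨s, rfl⟩ := mem_upper.mp hb
  have ht : t ≠ 0 := fun h => ha1 (h ▸ lo_zero)
  have hs : s ≠ 0 := fun h => hb1 (h ▸ up_zero)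
  have hm : up (-s) * lo t * up s ∈ conjBy (upperUnipotentSL2 k) (lo t)⁻¹ := by
    rw [← h, mem_conjBy]
    exact ⟨lo t, ha, by rw [inv_inv, up_inv]⟩
  obtain ⟨_, hu, hx⟩ := mem_conjBy.mp hm
  obtain ⟨w, rfl⟩ := mem_upper.mp hu
  rw [inv_inv, lo_inv] at hx
  have hx' := congrArg Subtype.val hx
  rw [conj_up, conj_lo] at hx'
  have e1 := congrFun (congrFun hx' 0) 0
  have e2 := congrFun (congrFun hx' 0) 1
  simp at e1 e2
  subst e2
  have hst : s * t = 1 := by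
    have h2 : s * t * (s * t - 1) = 0 := by linear_combination -e1
    rcases mul_eq_zero.mp h2 with h3 | h3
    · exact absurd h3 (mul_ne_zero hs ht)
    · linear_combination h3
  rw [up_inv, lo_inv, ← hx]
  congr 2
  congr 1
  linear_combination -s * hst

end Cfsg.Agent.H29.RankOneSL
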