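import Mathlib
import Cfsg.Agent.A8GL4.Basic

/-!
Subgroups of order 2520 of the linear group in dimension four over two elements.
-/

set_option autoImplicit false

namespace CfsgLib.H29.SevenInGL4

open MulAction Finset

variable {G X : Type*} [Group G] [MulAction G X] [Finite X]

theorem orbit_modEq {p : ℕ} [Fact p.Prime] {g : G} (hg : g ^ p = 1) (S : Set X)
    (hS : ∀ x ∈ S, g • x ∈ S) :
    Nat.card S ≡ Nat.card {x : X // x ∈ S ∧ g • x = x} [MOD p] := by
  classical
  let π : Equiv.Perm S := ((MulAction.toPerm g).subtypePerm (p := fun x => x ∈ S)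
    (fun x => ⟨fun h => by
      have hk : ∀ k : ℕ, g ^ k • x ∈ S → g ^ (k + 1) • x ∈ S := fun k hk => by
        rw [pow_succ', mul_smul]; exact hS _ hk
      have : ∀ k : ℕ, g ^ (k + 1) • x ∈ S := fun k => by
        induction k with
        | zero => simpa using h
        | succ k ih => exact hk _ ih
      have h1 := this (p - 1)
      rw [Nat.sub_add_cancel (Fact.out : p.Prime).pos, hg, one_smul] at h1
      exact h1, fun h => hS x h⟩))
  have hπ : π ^ p ^ 1 = 1 := by
    refine Equiv.ext fun x => Subtype.ext ?_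
    have : ∀ k : ℕ, ((π ^ k) x : X) = g ^ k • (x : X) := by
      intro k
      induction k with
      | zero => simp
      | succ k ih =>
        rw [pow_succ', pow_succ', mul_smul, ← ih]
        rfl
    rw [pow_one, this, hg, one_smul]
    rfl
  have : Fintype S := Fintype.ofFinite _
  have h := Equiv.Perm.card_compl_support_modEq (σ := π) hπ
  have e : π.supportᶜ.card = Nat.card {x : X // x ∈ S ∧ g • x = x} := by
    rw [← Nat.card_eq_finsetCard]
    refine Nat.card_congr
      { toFun := fun x => ⟨x.1.1, x.1.2, ?_⟩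
        invFun := fun x => ⟨⟨x.1, x.2.1⟩, ?_⟩
        left_inv := fun x => rfl
        right_inv := fun x => rfl }
    · have := x.2
      rw [Finset.mem_compl, Equiv.Perm.notMem_support] at this
      exact congrArg Subtype.val this
    · rw [Finset.mem_compl, Equiv.Perm.notMem_support]
      exact Subtype.ext x.2.2
  rw [e, ← Nat.card_eq_fintype_card] at h
  exact h.symm

/-- Two-transitivity from two elements and parity. -/
theorem two_transitive [Finite G] (hX : Nat.card X = 15) {g h t : G} (hg : g ^ 7 = 1) {v : X}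
    (hv : ∀ x : X, g • x = x ↔ x = v) (hh : h ^ 5 = 1) (hh' : ∀ x : X, h • x ≠ x)
    (ht : t * t = 1) {w : X} (hw : t • w ≠ w) :
    ∀ a b c d : X, a ≠ b → c ≠ d → ∃ k : G, k • a = c ∧ k • b = d := by
  classical
  have : Fact (Nat.Prime 7) := ⟨by norm_num⟩
  have : Fact (Nat.Prime 5) := ⟨by norm_num⟩
  have hle : ∀ S : Set X, Nat.card S ≤ 15 := fun S => hX ▸ Nat.card_le_card_of_injective _ Subtype.val_injective
  have htop : ∀ S : Set X, Nat.card S = 15 → ∀ x, x ∈ S := by
    intro S hS x
    rw [show S = Set.univ from Set.eq_of_subset_of_ncard_le (Set.subset_univ _)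
      (by rw [Set.ncard_univ, hX, ← Nat.card_coe_set_eq, hS])]
    trivial
  -- transitivity
  have htr : ∀ x, ∃ k : G, k • v = x := by
    have hgo : ∀ x ∈ orbit G v, g • x ∈ orbit G v := fun x hx => by
      obtain ⟨k, rfl⟩ := hx; exact ⟨g * k, mul_smul _ _ _⟩
    have hho : ∀ x ∈ orbit G v, h • x ∈ orbit G v := fun x hx => by
      obtain ⟨k, rfl⟩ := hx; exact ⟨h * k, mul_smul _ _ _⟩
    have h7 := orbit_modEq hg (orbit G v) hgo
    have h5 := orbit_modEq hh (orbit G v) hho
    have e7 : Nat.card {x : X // x ∈ orbit G v ∧ g • x = x} = 1 := by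
      rw [Nat.card_eq_one_iff_unique]
      exact ⟨⟨fun a b => Subtype.ext (((hv a.1).1 a.2.2).trans ((hv b.1).1 b.2.2).symm)⟩,
        ⟨⟨v, mem_orbit_self v, (hv v).2 rfl⟩⟩⟩
    have e5 : Nat.card {x : X // x ∈ orbit G v ∧ h • x = x} = 0 :=
      Nat.card_eq_zero.mpr (Or.inl ⟨fun x => hh' x.1 x.2.2⟩)
    rw [e7] at h7
    rw [e5] at h5
    have hpos : 0 < Nat.card (orbit G v) := Nat.card_pos_iff.mpr ⟨⟨⟨v, mem_orbit_self v⟩⟩, inferInstance⟩
    have := hle (orbit G v)
    unfold Nat.ModEq at h5 h7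
    exact htop (orbit G v) (by omega)
  -- the stabilizer is transitive on the others
  let O : X → Set X := fun x => {y | ∃ k : G, k • v = v ∧ k • x = y}
  have hOcard : ∀ x, x ≠ v → Nat.card (O x) = 7 ∨ Nat.card (O x) = 14 := by
    intro x hx
    have hmem : ∀ y ∈ O x, y ≠ v := by
      rintro y ⟨k, hk, rfl⟩ e
      exact hx ((MulAction.injective k) (e.trans hk.symm))
    have hgO : ∀ y ∈ O x, g • y ∈ O x := by
      rintro y ⟨k, hk, rfl⟩
      exact ⟨g * k, by rw [mul_smul, hk, (hv v).2 rfl], mul_smul _ _ _⟩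
    have h7 := orbit_modEq hg (O x) hgO
    have e0 : Nat.card {y : X // y ∈ O x ∧ g • y = y} = 0 :=
      Nat.card_eq_zero.mpr (Or.inl ⟨fun y => hmem y.1 y.2.1 ((hv y.1).1 y.2.2)⟩)
    rw [e0] at h7
    have hxO : x ∈ O x := ⟨1, one_smul _ _, one_smul _ _⟩
    have hpos : 0 < Nat.card (O x) := Nat.card_pos_iff.mpr ⟨⟨⟨x, hxO⟩⟩, inferInstance⟩
    have hlt : Nat.card (O x) < 15 := by
      rcases Nat.lt_or_ge (Nat.card (O x)) 15 with h | h
      · exact h
      · exact absurd rfl (hmem v (htop _ (le_antisymm (hle _) h) v))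
    unfold Nat.ModEq at h7
    omega
  have hfull : ∀ x, x ≠ v → Nat.card (O x) = 14 → ∀ y, y ≠ v → y ∈ O x := by
    intro x hx hc y hy
    have hvn : v ∉ O x := by
      rintro ⟨k, hk, e⟩
      exact hx ((MulAction.injective k) (e.trans hk.symm))
    have : (O x : Set X) = {v}ᶜ := by
      refine Set.eq_of_subset_of_ncard_le (fun z hz e => hvn (Set.mem_singleton_iff.mp e ▸ hz)) ?_
      rw [Set.ncard_compl, Set.ncard_singleton, hX, ← Nat.card_coe_set_eq, hc]
    rw [this]
    exact hy
  obtain ⟨x0, hx0, h14⟩ : ∃ x, x ≠ v ∧ Nat.card (O x) = 14 := by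
    obtain ⟨k, hk⟩ := htr w
    set u := k⁻¹ • (t • w) with hu
    have huv : u ≠ v := fun e => hw (by
      rw [hu, inv_smul_eq_iff, hk] at e; exact e)
    refine ⟨u, huv, (hOcard u huv).resolve_left fun h7 => ?_⟩
    -- the orbital of `(v, u)` is symmetric
    let R : X → X → Prop := fun a b => ∃ s : G, s • v = a ∧ s • u = b
    have hsymm : ∀ a b, R a b → R b a := by
      rintro a b ⟨s, rfl, rfl⟩
      refine ⟨s * k⁻¹ * t * k, ?_, ?_⟩
      · rw [mul_smul, mul_smul, mul_smul, hk]
      · rw [mul_smul, mul_smul, mul_smul, hu, smul_inv_smul, ← mul_smul t t, ht, one_smul, ← hk,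
          inv_smul_smul]
    have hirr : ∀ a, ¬ R a a := by
      rintro a ⟨s, rfl, e⟩
      exact huv (MulAction.injective s e)
    have : Fintype X := Fintype.ofFinite X
    let f : Equiv.Perm {p : X × X // R p.1 p.2} :=
      { toFun := fun p => ⟨(p.1.2, p.1.1), hsymm _ _ p.2⟩
        invFun := fun p => ⟨(p.1.2, p.1.1), hsymm _ _ p.2⟩
        left_inv := fun p => rfl
        right_inv := fun p => rfl }
    have : Fact (Nat.Prime 2) := ⟨Nat.prime_two⟩
    have hm := Equiv.Perm.card_compl_support_modEq (σ := f) (p := 2) (n := 1) (Equiv.ext fun p => rfl)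
    have hz : f.supportᶜ.card = 0 := by
      rw [Finset.card_eq_zero, Finset.eq_empty_iff_forall_notMem]
      intro p hp
      rw [Finset.mem_compl, Equiv.Perm.notMem_support] at hp
      have e : p.1.2 = p.1.1 := congrArg (fun q : {p : X × X // R p.1 p.2} => q.1.1) hp
      exact hirr p.1.1 (by have := p.2; rwa [e] at this)
    rw [hz] at hm
    have hcount : Fintype.card {p : X × X // R p.1 p.2} = 105 := by
      have e : {p : X × X // R p.1 p.2} ≃ Σ a : X, {b : X // R a b} :=
        { toFun := fun p => ⟨p.1.1, p.1.2, p.2⟩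
          invFun := fun p => ⟨(p.1, p.2.1), p.2.2⟩
          left_inv := fun p => rfl
          right_inv := fun p => rfl }
      rw [← Nat.card_eq_fintype_card, Nat.card_congr e, Nat.card_sigma]
      have heach : ∀ a : X, Nat.card {b : X // R a b} = 7 := by
        intro a
        obtain ⟨s, hs⟩ := htr a
        refine h7 ▸ (Nat.card_congr (α := O u) (β := {b : X // R a b})
          { toFun := fun y => ⟨s • (y : X), ?_⟩
            invFun := fun b => ⟨s⁻¹ • b.1, ?_⟩
            left_inv := fun y => Subtype.ext (inv_smul_smul _ _)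
            right_inv := fun b => Subtype.ext (smul_inv_smul _ _) }).symm
        · obtain ⟨j, hj, e⟩ := y.2
          exact ⟨s * j, by rw [mul_smul, hj, hs], by rw [mul_smul, e]⟩
        · obtain ⟨j, hj, e⟩ := b.2
          exact ⟨s⁻¹ * j, by rw [mul_smul, hj, ← hs, inv_smul_smul], by rw [mul_smul, e]⟩
      simp only [heach, Finset.sum_const, smul_eq_mul, Finset.card_univ, ← Nat.card_eq_fintype_card, hX]
    rw [hcount] at hm
    exact absurd hm (by decide)
  intro a b c d hab hcd
  have hmove : ∀ a b : X, a ≠ b → ∃ k : G, k • v = a ∧ k • x0 = b := by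
    intro a b hab
    obtain ⟨s, hs⟩ := htr a
    obtain ⟨j, hj, e⟩ := hfull x0 hx0 h14 (s⁻¹ • b) (fun e => hab (by
      rw [inv_smul_eq_iff, hs] at e; exact e.symm))
    exact ⟨s * j, by rw [mul_smul, hj, hs], by rw [mul_smul, e, smul_inv_smul]⟩
  obtain ⟨k1, e1, e1'⟩ := hmove a b hab
  obtain ⟨k2, e2, e2'⟩ := hmove c d hcd
  exact ⟨k2 * k1⁻¹, by rw [mul_smul, ← e1, inv_smul_smul, e2],
    by rw [mul_smul, ← e1', inv_smul_smul, e2']⟩

open Matrix

/-- Two-transitivity on nonzero vectors. -/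
theorem transitive_of_card {F : Type*} [Field F] [Fintype F] (hF : Fintype.card F = 2)
    (H : Subgroup (GL (Fin 4) F)) (hH : Nat.card H = 2520) (v w v' w' : Fin 4 → F)
    (hv : v ≠ 0) (hw : w ≠ 0) (hvw : v ≠ w) (hv' : v' ≠ 0) (hw' : w' ≠ 0) (hvw' : v' ≠ w') :
    ∃ g ∈ H, (g : Matrix (Fin 4) (Fin 4) F).mulVec v = v' ∧
      (g : Matrix (Fin 4) (Fin 4) F).mulVec w = w' := by
  classical
  let inst : MulAction H {x : Fin 4 → F // x ≠ 0} :=
    { smul := fun k x => ⟨((k : GL (Fin 4) F) : Matrix (Fin 4) (Fin 4) F).mulVec x.1, fun e => x.2 (by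
        have := congrArg ((((k : GL (Fin 4) F)⁻¹ : GL (Fin 4) F) : Matrix (Fin 4) (Fin 4) F).mulVec) e
        rwa [Matrix.mulVec_mulVec, ← Units.val_mul, inv_mul_cancel, Units.val_one, Matrix.one_mulVec,
          Matrix.mulVec_zero] at this)⟩
      one_smul := fun x => Subtype.ext (Matrix.one_mulVec _)
      mul_smul := fun a b x => Subtype.ext (by
        change ((((a * b : H) : GL (Fin 4) F)) : Matrix (Fin 4) (Fin 4) F).mulVec x.1 = _
        rw [Subgroup.coe_mul, Units.val_mul, ← Matrix.mulVec_mulVec]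
        rfl) }
  have hcX : Nat.card {x : Fin 4 → F // x ≠ 0} = 15 := by
    rw [Nat.card_eq_fintype_card, Fintype.card_subtype_compl, Fintype.card_pi, Fintype.card_subtype_eq]
    simp [hF]
  have hfixcard : ∀ (k : H) (p : ℕ), p.Prime → k ^ p = 1 → k ≠ 1 →
      (Nat.card {x : {x : Fin 4 → F // x ≠ 0} // k • x = x} + 1) ∈ [1, 2, 4, 8] ∧
      Nat.card {x : {x : Fin 4 → F // x ≠ 0} // k • x = x} % p = 15 % p := by
    intro k p hp hk hk1
    have := Fact.mk hp
    refine ⟨?_, ?_⟩
    · let M : Matrix (Fin 4) (Fin 4) F := (k : GL (Fin 4) F)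
      let W : Submodule F (Fin 4 → F) := LinearMap.eqLocus (Matrix.toLin' M) LinearMap.id
      have hmem : ∀ x, x ∈ W ↔ M.mulVec x = x := fun x => by simp [W]
      have hW : W ≠ ⊤ := fun e => hk1 (by
        refine Subtype.ext (Units.ext (Matrix.toLin'.injective (LinearMap.ext fun x => ?_)))
        have : x ∈ W := e ▸ trivial
        simpa [hmem] using (hmem x).1 this)
      have hc : Nat.card W = 2 ^ Module.finrank F W := by
        rw [Module.natCard_eq_pow_finrank (K := F), Nat.card_eq_fintype_card, hF]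
      have hlt : Module.finrank F W < 4 := by
        have := Submodule.finrank_lt hW
        rwa [Module.finrank_pi, Fintype.card_fin] at this
      have e : Nat.card W = Nat.card {x : {x : Fin 4 → F // x ≠ 0} // k • x = x} + 1 := by
        have : Fintype W := Fintype.ofFinite _
        have e1 : {x : {x : Fin 4 → F // x ≠ 0} // k • x = x} ≃ {x : W // x ≠ 0} :=
          { toFun := fun x => ⟨⟨x.1.1, (hmem _).2 (congrArg Subtype.val x.2)⟩, fun e => x.1.2 (congrArg Subtype.val e)⟩
            invFun := fun x => ⟨⟨x.1.1, fun e => x.2 (Subtype.ext e)⟩, Subtype.ext ((hmem _).1 x.1.2)⟩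
            left_inv := fun x => rfl
            right_inv := fun x => rfl }
        rw [Nat.card_congr e1, Nat.card_eq_fintype_card, Nat.card_eq_fintype_card,
          Fintype.card_subtype_compl, Fintype.card_subtype_eq, Nat.sub_add_cancel Fintype.card_pos]
      rw [← e, hc]
      interval_cases Module.finrank F W <;> simp
    · have h := orbit_modEq (X := {x : Fin 4 → F // x ≠ 0}) hk Set.univ (fun _ _ => trivial)
      rw [Nat.card_univ, hcX, Nat.card_congr (Equiv.subtypeEquivRight (q := fun x => k • x = x) fun x => by simp)] at h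
      exact h.symm
  have hexists : ∀ p : ℕ, p.Prime → p ∣ 2520 → ∃ k : H, k ^ p = 1 ∧ k ≠ 1 := fun p hp hd => by
    have := Fact.mk hp
    obtain ⟨k, hk⟩ := exists_prime_orderOf_dvd_card' (G := H) p (hH ▸ hd)
    exact ⟨k, hk ▸ pow_orderOf_eq_one k, fun e => by rw [e, orderOf_one] at hk; exact hp.ne_one hk.symm⟩
  obtain ⟨g, hg7, hg1⟩ := hexists 7 (by norm_num) (by norm_num)
  obtain ⟨h, hh5, hh1⟩ := hexists 5 (by norm_num) (by norm_num)
  obtain ⟨t, ht2, ht1⟩ := hexists 2 (by norm_num) (by norm_num)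
  obtain ⟨a7, b7⟩ := hfixcard g 7 (by norm_num) hg7 hg1
  obtain ⟨a5, b5⟩ := hfixcard h 5 (by norm_num) hh5 hh1
  simp only [List.mem_cons, List.not_mem_nil, or_false] at a7 a5
  have c7 : Nat.card {x : {x : Fin 4 → F // x ≠ 0} // g • x = x} = 1 := by omega
  have c5 : Nat.card {x : {x : Fin 4 → F // x ≠ 0} // h • x = x} = 0 := by omega
  obtain ⟨hs, ⟨⟨v0, hv0⟩⟩⟩ := Nat.card_eq_one_iff_unique.mp c7
  obtain ⟨w0, hw0⟩ : ∃ x : {x : Fin 4 → F // x ≠ 0}, t • x ≠ x := by
    by_contra hcon
    push Not at hcon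
    refine ht1 (Subtype.ext (Units.ext (Matrix.toLin'.injective (LinearMap.ext fun x => ?_))))
    by_cases hx : x = 0
    · simp [hx]
    · have e := congrArg Subtype.val (hcon ⟨x, hx⟩)
      simp only [Matrix.toLin'_apply, OneMemClass.coe_one, Units.val_one, Matrix.one_mulVec]
      exact e
  obtain ⟨k, hk1, hk2⟩ := two_transitive hcX hg7
    (fun x => ⟨fun e => congrArg Subtype.val (Subsingleton.elim (⟨x, e⟩ : {x : {x : Fin 4 → F // x ≠ 0} // g • x = x}) ⟨v0, hv0⟩), fun e => e ▸ hv0⟩)
    hh5 (fun x e => by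
      have := (Nat.card_eq_zero.mp c5).resolve_right (fun hi => hi.not_finite inferInstance)
      exact this.false ⟨x, e⟩)
    (by rw [← pow_two]; exact ht2) hw0 ⟨v, hv⟩ ⟨w, hw⟩ ⟨v', hv'⟩ ⟨w', hw'⟩
    (fun e => hvw (congrArg Subtype.val e)) (fun e => hvw' (congrArg Subtype.val e))
  exact ⟨k, k.2, congrArg Subtype.val hk1, congrArg Subtype.val hk2⟩

/-- A copy of the alternating group of degree seven. -/
theorem exists_A7 {F : Type*} [Field F] [Fintype F] (hF : Fintype.card F = 2) :
    ∃ H : Subgroup (GL (Fin 4) F), Nonempty (H ≃* alternatingGroup (Fin 7)) := by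
  classical
  have : Fact (Nat.Prime 2) := ⟨Nat.prime_two⟩
  obtain ⟨f, hf⟩ := CfsgLib.A8GL4.exists_GL_hom
  have hcard : Nat.card (GL (Fin 4) (ZMod 2)) = Nat.card (alternatingGroup (Fin 8)) := by
    rw [Matrix.card_GL_field, nat_card_alternatingGroup, Nat.card_fin, ZMod.card, Fin.prod_univ_four]
    rfl
  let e := MulEquiv.ofBijective f ((Nat.bijective_iff_injective_and_card _).mpr ⟨hf, hcard⟩)
  let r : ZMod 2 ≃+* F := ZMod.ringEquivOfPrime F Nat.prime_two hF
  let m : GL (Fin 4) (ZMod 2) →* GL (Fin 4) F := Matrix.GeneralLinearGroup.map r.toRingHom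
  have hm : Function.Injective m := by
    intro a b h
    refine Units.ext (Matrix.ext fun i j => r.injective ?_)
    exact congrArg (fun M : GL (Fin 4) F => (M : Matrix (Fin 4) (Fin 4) F) i j) h
  let ι : Equiv.Perm (Fin 7) →* Equiv.Perm (Fin 8) :=
    Equiv.Perm.extendDomainHom (finSuccAboveEquiv (Fin.last 7))
  let j : alternatingGroup (Fin 7) →* alternatingGroup (Fin 8) :=
    (ι.comp (alternatingGroup (Fin 7)).subtype).codRestrict _ fun x => by
      rw [Equiv.Perm.mem_alternatingGroup, MonoidHom.comp_apply, Equiv.Perm.extendDomainHom_apply,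
        Equiv.Perm.sign_extendDomain]
      exact Equiv.Perm.mem_alternatingGroup.mp x.2
  have hj : Function.Injective j := by
    rw [MonoidHom.injective_codRestrict]
    exact (Equiv.Perm.extendDomainHom_injective _).comp Subtype.val_injective
  exact ⟨(m.comp (e.symm.toMonoidHom.comp j)).range,
    ⟨(MonoidHom.ofInjective (f := m.comp (e.symm.toMonoidHom.comp j))
      (hm.comp (e.symm.injective.comp hj))).symm⟩⟩

end CfsgLib.H29.SevenInGL4
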