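import Mathlib

/-! A square matrix over a field is similar to its transpose. -/

set_option autoImplicit false

namespace Cfsg.Agent.H29.Similar

open Matrix Polynomial Module

section eval

variable {M : Type*} [Ring M]

/-- evaluation with powers on the left -/
noncomputable def leftEval (a : M) (p : M[X]) : M := p.sum fun i c => a ^ i * c

theorem leftEval_add (a : M) (p q : M[X]) :
    leftEval a (p + q) = leftEval a p + leftEval a q :=
  Polynomial.sum_add_index _ _ _ (by simp) (by simp [mul_add])

theorem leftEval_monomial (a : M) (i : ℕ) (c : M) :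
    leftEval a (monomial i c) = a ^ i * c := by
  simp [leftEval]

theorem leftEval_mul (a : M) (p q : M[X]) :
    leftEval a (p * q) = q.sum fun j c => a ^ j * leftEval a p * c := by
  induction q using Polynomial.induction_on' with
  | add f g hf hg =>
    rw [mul_add, leftEval_add, hf, hg, Polynomial.sum_add_index _ _ _ (by simp) (by simp [mul_add])]
  | monomial j c =>
    rw [Polynomial.sum_monomial_index _ _ (by simp)]
    induction p using Polynomial.induction_on' with
    | add f g hf hg => rw [add_mul, leftEval_add, hf, hg, leftEval_add, mul_add, add_mul]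
    | monomial i b =>
      rw [monomial_mul_monomial, leftEval_monomial, leftEval_monomial, add_comm i j, pow_add]
      noncomm_ring

theorem leftEval_sub_mul (a : M) (q : M[X]) :
    leftEval a ((X - C a) * q) = 0 := by
  rw [leftEval_mul]
  have : leftEval a (X - C a) = 0 := by
    have h : (X - C a : M[X]) = monomial 1 1 + monomial 0 (-a) := by
      simp [monomial_one_one_eq_X, sub_eq_add_neg]
    rw [h, leftEval_add, leftEval_monomial, leftEval_monomial]; simp
  simp [this, Polynomial.sum_def]

theorem similar_of_equiv (a b : M) (p p' q q' : M[X]) (hp : p' * p = 1) (hp' : p * p' = 1)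
    (hq : q * q' = 1) (h : p * (X - C a) = (X - C b) * q) :
    IsConj a b := by
  set t := leftEval b p with ht
  set t' := leftEval a p' with ht'
  have e1 : b * t = t * a := by
    have h0 : leftEval b (p * (X - C a)) = 0 := by rw [h, leftEval_sub_mul]
    have hX : (X - C a : M[X]) = monomial 1 1 + monomial 0 (-a) := by
      simp [monomial_one_one_eq_X, sub_eq_add_neg]
    rw [hX, mul_add, leftEval_add, leftEval_mul, leftEval_mul,
      Polynomial.sum_monomial_index _ _ (by simp),
      Polynomial.sum_monomial_index _ _ (by simp)] at h0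
    simpa [← ht, sub_eq_zero, ← sub_eq_add_neg] using h0
  have e2 : (X - C a) * q' = p' * (X - C b) := by
    calc (X - C a) * q' = p' * (p * (X - C a)) * q' := by rw [← mul_assoc p', hp, one_mul]
    _ = p' * ((X - C b) * q) * q' := by rw [h]
    _ = p' * (X - C b) := by simp [mul_assoc, hq]
  have e3 : a * t' = t' * b := by
    have h0 : leftEval a (p' * (X - C b)) = 0 := by rw [← e2, leftEval_sub_mul]
    have hX : (X - C b : M[X]) = monomial 1 1 + monomial 0 (-b) := by
      simp [monomial_one_one_eq_X, sub_eq_add_neg]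
    rw [hX, mul_add, leftEval_add, leftEval_mul, leftEval_mul,
      Polynomial.sum_monomial_index _ _ (by simp),
      Polynomial.sum_monomial_index _ _ (by simp)] at h0
    simpa [← ht', sub_eq_zero, ← sub_eq_add_neg] using h0
  have key : ∀ (x y : M) (u u' : M[X]), u' * u = 1 → leftEval x u' = leftEval x u' →
      x * leftEval x u' = leftEval x u' * y → leftEval x u' * leftEval y u = 1 := by
    intro x y u u' hu _ hc
    have hone : leftEval x (u' * u) = 1 := by
      rw [hu, ← Polynomial.C_1, ← monomial_zero_left, leftEval_monomial]; simp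
    rw [leftEval_mul] at hone
    rw [← hone, leftEval.eq_def y, Polynomial.sum_def, Polynomial.sum_def, Finset.mul_sum]
    refine Finset.sum_congr rfl fun j _ => ?_
    rw [← mul_assoc]
    congr 1
    exact ((SemiconjBy.pow_right (show SemiconjBy (leftEval x u') y x from hc.symm) j).eq)
  have f1 : t' * t = 1 := key a b p p' hp rfl e3
  have f2 : t * t' = 1 := key b a p' p hp' rfl e1
  exact ⟨⟨t, t', f2, f1⟩, e1.symm⟩

end eval

variable {F : Type*} [Field F] {n : Type*} [Fintype n] [DecidableEq n]

theorem exists_smith {R : Type*} [CommRing R] [IsDomain R] [IsPrincipalIdealRing R]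
    (D : Matrix n n R) (hD : D.det ≠ 0) :
    ∃ (U W : Matrix n n R) (a : n → R), IsUnit U.det ∧ IsUnit W.det ∧
      D * W = U * diagonal a := by
  have hinj : Function.Injective D.mulVecLin := by
    rw [← LinearMap.ker_eq_bot, LinearMap.ker_eq_bot']
    intro v hv
    exact eq_zero_of_mulVec_eq_zero hD hv
  set N := LinearMap.range D.mulVecLin
  let e := LinearEquiv.ofInjective D.mulVecLin hinj
  obtain ⟨bM, a, bN, hb⟩ :=
    Submodule.exists_smith_normal_form_of_rank_eq (Pi.basisFun R n) (N := N)
      e.finrank_eq.symm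
  let w : Basis n R (n → R) := bN.map e.symm
  refine ⟨(Pi.basisFun R n).toMatrix bM, (Pi.basisFun R n).toMatrix w, a,
    ?_, ?_, ?_⟩
  · exact (isUnit_iff_isUnit_det _).mp
      (@isUnit_of_invertible _ _ _ ((Pi.basisFun R n).invertibleToMatrix bM))
  · exact (isUnit_iff_isUnit_det _).mp
      (@isUnit_of_invertible _ _ _ ((Pi.basisFun R n).invertibleToMatrix w))
  · ext i j
    have h1 : D.mulVec (w j) = a j • bM j := by
      rw [← hb j]
      have : e (w j) = bN j := by simp [w]
      rw [← this]; rfl
    rw [mul_apply, mul_diagonal]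
    have := congrFun h1 i
    simp only [Basis.toMatrix_apply, Pi.basisFun_repr, Pi.smul_apply, smul_eq_mul,
      mulVec, dotProduct] at this ⊢
    rw [this, mul_comm]

theorem isConj_transpose (A : Matrix n n F) : IsConj A Aᵀ := by
  set D := charmatrix A with hDdef
  have hD : D.det ≠ 0 := (charpoly_monic A).ne_zero
  obtain ⟨U, W, a, hU, hW, h⟩ := exists_smith D hD
  have hDt : Dᵀ = charmatrix Aᵀ := (charmatrix_transpose A).symm
  have h2 : Wᵀ * Dᵀ = diagonal a * Uᵀ := by
    rw [← transpose_mul, h, transpose_mul, diagonal_transpose]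
  set P : Matrix n n F[X] := (Wᵀ)⁻¹ * U⁻¹ with hP
  set Q : Matrix n n F[X] := (Uᵀ)⁻¹ * W⁻¹ with hQ
  have hWt : IsUnit Wᵀ.det := by rwa [det_transpose]
  have hUt : IsUnit Uᵀ.det := by rwa [det_transpose]
  have hPu : IsUnit P.det := by
    rw [hP, det_mul]; exact (isUnit_nonsing_inv_det _ hWt).mul (isUnit_nonsing_inv_det _ hU)
  have hQu : IsUnit Q.det := by
    rw [hQ, det_mul]; exact (isUnit_nonsing_inv_det _ hUt).mul (isUnit_nonsing_inv_det _ hW)
  have hkey : P * D = Dᵀ * Q := by
    have hd : diagonal a = U⁻¹ * (D * W) := by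
      rw [h, ← Matrix.mul_assoc, nonsing_inv_mul _ hU, Matrix.one_mul]
    have hDt' : Dᵀ = (Wᵀ)⁻¹ * (diagonal a * Uᵀ) := by
      rw [← h2, ← Matrix.mul_assoc, nonsing_inv_mul _ hWt, Matrix.one_mul]
    rw [hDt', hd, hP, hQ]
    simp only [Matrix.mul_assoc]
    rw [← Matrix.mul_assoc Uᵀ, mul_nonsing_inv _ hUt, Matrix.one_mul,
      mul_nonsing_inv _ hW, Matrix.mul_one]
  rw [hDt] at hkey
  have h3 := congrArg (matPolyEquiv (R := F) (n := n)) hkey
  clear_value P Q
  rw [map_mul, map_mul, hDdef, matPolyEquiv_charmatrix, matPolyEquiv_charmatrix] at h3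
  exact similar_of_equiv A Aᵀ (matPolyEquiv P) (matPolyEquiv P⁻¹) (matPolyEquiv Q)
    (matPolyEquiv Q⁻¹)
    (by rw [← map_mul, nonsing_inv_mul _ hPu, map_one])
    (by rw [← map_mul, mul_nonsing_inv _ hPu, map_one])
    (by rw [← map_mul, mul_nonsing_inv _ hQu, map_one]) h3

end Cfsg.Agent.H29.Similar
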