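import Mathlib
import Cfsg.Prelude.Def_ClassicalGeometry
import Cfsg.Agent.S0839

/-! Order of the centraliser of a transvection in GL. -/

set_option autoImplicit false

namespace Cfsg.Agent.H29.TransvectionCard

open Matrix

section Transport

variable {M N : Type*} [Monoid M] [Monoid N]

def Comm (x : M) : Type _ := {u : Mˣ // (u : M) * x = x * u}

theorem card_comm_equiv (e : M ≃* N) (x : M) : Nat.card (Comm x) = Nat.card (Comm (e x)) := by
  refine Nat.card_congr (Equiv.subtypeEquiv (Units.mapEquiv e).toEquiv fun u => ?_)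
  simp only [MulEquiv.toEquiv_eq_coe, EquivLike.coe_coe, Units.coe_mapEquiv]
  rw [← map_mul, ← map_mul, e.injective.eq_iff]

theorem card_comm_conj (h : Mˣ) (x : M) :
    Nat.card (Comm x) = Nat.card (Comm ((h : M) * x * (↑h⁻¹ : M))) := by
  refine Nat.card_congr (Equiv.subtypeEquiv (MulAut.conj h).toEquiv fun u => ?_)
  simp only [MulEquiv.toEquiv_eq_coe, EquivLike.coe_coe, MulAut.conj_apply, Units.val_mul]
  simp only [mul_assoc, Units.inv_mul_cancel_left]
  rw [h.mul_right_inj]
  simp only [← mul_assoc]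
  rw [h⁻¹.mul_left_inj]

end Transport

variable {F : Type*} [Field F]

abbrev Idx (m : ℕ) := Unit ⊕ (Fin m ⊕ Unit)

def model (m : ℕ) : Matrix (Idx m) (Idx m) F := Matrix.single (Sum.inl ()) (Sum.inr (Sum.inr ())) 1

def param (m : ℕ) (a : F) (A : Matrix (Fin m) (Fin m) F) (r s : Fin m → F) (c : F) :
    Matrix (Idx m) (Idx m) F :=
  fromBlocks (of fun _ _ => a) (of fun _ j => Sum.elim r (fun _ => c) j) 0
    (fromBlocks A (of fun i _ => s i) 0 (of fun _ _ => a))

theorem det_param (m : ℕ) (a : F) (A : Matrix (Fin m) (Fin m) F) (r s : Fin m → F) (c : F) :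
    (param m a A r s c).det = a * (A.det * a) := by
  simp [param, det_fromBlocks_zero₂₁, det_unique]

theorem mul_model_apply {m : ℕ} (g : Matrix (Idx m) (Idx m) F) (i j : Idx m) :
    (g * model m : Matrix (Idx m) (Idx m) F) i j =
      if j = Sum.inr (Sum.inr ()) then g i (Sum.inl ()) else 0 := by
  by_cases h : j = Sum.inr (Sum.inr ())
  · subst h; simp [model]
  · simp [model, h, Matrix.mul_single_apply_of_ne _ _ _ _ _ h]

theorem model_mul_apply {m : ℕ} (g : Matrix (Idx m) (Idx m) F) (i j : Idx m) :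
    (model m * g : Matrix (Idx m) (Idx m) F) i j =
      if i = Sum.inl () then g (Sum.inr (Sum.inr ())) j else 0 := by
  by_cases h : i = Sum.inl ()
  · subst h; simp [model]
  · simp [model, h, Matrix.single_mul_apply_of_ne _ _ _ _ _ h]

theorem card_comm_model [Fintype F] (m : ℕ) :
    Nat.card (Comm (model m : Matrix (Idx m) (Idx m) F)) =
      (Fintype.card F - 1) * Nat.card (GL (Fin m) F) *
        (Fintype.card F ^ m * Fintype.card F ^ m * Fintype.card F) := by
  classical
  have hu : ∀ (a : Fˣ) (A : GL (Fin m) F) (r s : Fin m → F) (c : F),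
      IsUnit (param m (a : F) (A : Matrix (Fin m) (Fin m) F) r s c) := fun a A r s c => by
    rw [isUnit_iff_isUnit_det, det_param]
    exact a.isUnit.mul (((isUnit_iff_isUnit_det _).mp A.isUnit).mul a.isUnit)
  let φ : (Fˣ × GL (Fin m) F) × ((Fin m → F) × (Fin m → F) × F) →
      Comm (model m : Matrix (Idx m) (Idx m) F) := fun p =>
    ⟨(hu p.1.1 p.1.2 p.2.1 p.2.2.1 p.2.2.2).unit, by
      ext i j
      rw [mul_model_apply, model_mul_apply, IsUnit.unit_spec]
      rcases i with i | i | i <;> rcases j with j | j | j <;> simp [param]⟩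
  have hφ : Function.Bijective φ := by
    constructor
    · intro p p' h
      have h' : param m (p.1.1 : F) (p.1.2 : Matrix (Fin m) (Fin m) F) p.2.1 p.2.2.1 p.2.2.2 =
          param m (p'.1.1 : F) (p'.1.2 : Matrix (Fin m) (Fin m) F) p'.2.1 p'.2.2.1 p'.2.2.2 :=
        congrArg (fun u : Comm _ => ((u.1 : (Matrix (Idx m) (Idx m) F)ˣ) :
          Matrix (Idx m) (Idx m) F)) h
      refine Prod.ext (Prod.ext (Units.ext ?_) (Units.ext ?_)) (Prod.ext ?_ (Prod.ext ?_ ?_))
      · simpa [param] using congrFun₂ h' (Sum.inl ()) (Sum.inl ())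
      · ext i j
        simpa [param] using congrFun₂ h' (Sum.inr (Sum.inl i)) (Sum.inr (Sum.inl j))
      · funext j
        simpa [param] using congrFun₂ h' (Sum.inl ()) (Sum.inr (Sum.inl j))
      · funext i
        simpa [param] using congrFun₂ h' (Sum.inr (Sum.inl i)) (Sum.inr (Sum.inr ()))
      · simpa [param] using congrFun₂ h' (Sum.inl ()) (Sum.inr (Sum.inr ()))
    · rintro ⟨u, hcomm⟩
      set g : Matrix (Idx m) (Idx m) F := u.val with hg
      have e : ∀ i j, (if j = Sum.inr (Sum.inr ()) then g i (Sum.inl ()) else 0) =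
          (if i = Sum.inl () then g (Sum.inr (Sum.inr ())) j else 0) := fun i j => by
        rw [← mul_model_apply, ← model_mul_apply, hcomm]
      have hdiag : g (Sum.inl ()) (Sum.inl ()) = g (Sum.inr (Sum.inr ())) (Sum.inr (Sum.inr ())) := by
        simpa using e (Sum.inl ()) (Sum.inr (Sum.inr ()))
      have hcol : ∀ i, g (Sum.inr i) (Sum.inl ()) = 0 := fun i => by
        simpa using e (Sum.inr i) (Sum.inr (Sum.inr ()))
      have hrow : ∀ j, g (Sum.inr (Sum.inr ())) (Sum.inr (Sum.inl j)) = 0 := fun j => by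
        simpa using (e (Sum.inl ()) (Sum.inr (Sum.inl j))).symm
      have hg' : g = param m (g (Sum.inl ()) (Sum.inl ()))
          (of fun i j => g (Sum.inr (Sum.inl i)) (Sum.inr (Sum.inl j)))
          (fun j => g (Sum.inl ()) (Sum.inr (Sum.inl j)))
          (fun i => g (Sum.inr (Sum.inl i)) (Sum.inr (Sum.inr ())))
          (g (Sum.inl ()) (Sum.inr (Sum.inr ()))) := by
        ext i j
        rcases i with i | i | i <;> rcases j with j | j | j <;>
          simp [param, hcol, hrow, ← hdiag]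
      have hdet : IsUnit g.det := (isUnit_iff_isUnit_det _).mp u.isUnit
      rw [hg', det_param] at hdet
      obtain ⟨ha, hA⟩ := IsUnit.mul_iff.mp hdet
      refine ⟨((ha.unit, ((isUnit_iff_isUnit_det _).mpr (isUnit_of_mul_isUnit_left hA)).unit),
        ((fun j => g (Sum.inl ()) (Sum.inr (Sum.inl j))),
          (fun i => g (Sum.inr (Sum.inl i)) (Sum.inr (Sum.inr ()))),
          g (Sum.inl ()) (Sum.inr (Sum.inr ())))), Subtype.ext (Units.ext ?_)⟩
      simp only [φ, IsUnit.unit_spec]
      exact hg'.symm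
  have := Nat.card_congr (Equiv.ofBijective φ hφ)
  rw [← this]
  simp only [Nat.card_prod, Nat.card_units, Nat.card_fun, Nat.card_eq_fintype_card (α := F),
    Fintype.card_fin, Nat.card_eq_fintype_card (α := Fin m)]
  ring

theorem exists_model_conj {m : ℕ} (t : GL (Fin (m + 2)) F)
    (ht : Cfsg.IsTransvection (t : Matrix (Fin (m + 2)) (Fin (m + 2)) F)) :
    ∃ (h : GL (Fin (m + 2)) F) (k : Fin (m + 2)), k ≠ 0 ∧
      (h : Matrix (Fin (m + 2)) (Fin (m + 2)) F) *
        ((t : Matrix (Fin (m + 2)) (Fin (m + 2)) F) - 1) *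
        ((h⁻¹ : GL (Fin (m + 2)) F) : Matrix (Fin (m + 2)) (Fin (m + 2)) F) = single k 0 1 := by
  have hdet : (t : Matrix (Fin (m + 2)) (Fin (m + 2)) F).det = 1 := by
    obtain ⟨hr, hsq⟩ := ht
    set M := (t : Matrix (Fin (m + 2)) (Fin (m + 2)) F) - 1 with hMdef
    have hnil : IsNilpotent M := ⟨2, by rw [pow_two]; exact hsq⟩
    rw [Matrix.rank] at hr
    obtain ⟨⟨u, hu⟩, hu0, huspan⟩ := finrank_eq_one_iff'.1 hr
    choose φ hφ using fun j : Fin (m + 2) => huspan ⟨M.mulVec (Pi.single j 1), ⟨_, rfl⟩⟩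
    have hM : M = vecMulVec u φ := by
      ext i j
      have h := congrFun (congrArg Subtype.val (hφ j)) i
      simp only [SetLike.val_smul, Pi.smul_apply, smul_eq_mul, Matrix.mulVec_single_one,
        Matrix.col_apply] at h
      rw [Matrix.vecMulVec_apply, ← h, mul_comm]
    have htr : M.trace = 0 := IsNilpotent.eq_zero (Matrix.isNilpotent_trace_of_isNilpotent hnil)
    have ht1 : (t : Matrix (Fin (m + 2)) (Fin (m + 2)) F) = 1 + M := by rw [hMdef]; abel
    rw [ht1, hM, vecMulVec_eq Unit, det_one_add_replicateCol_mul_replicateRow,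
      dotProduct_comm]
    rw [hM, trace_vecMulVec] at htr
    rw [htr, add_zero]
  obtain ⟨g, v, hv0, hg⟩ := Cfsg.Agent.S0839.result m ⟨_, hdet⟩ ht
  simp only [Matrix.SpecialLinearGroup.coe_mul] at hg
  set g' : GL (Fin (m + 2)) F := Matrix.SpecialLinearGroup.toGL g with hg'
  have hgi : ((g'⁻¹ : GL (Fin (m + 2)) F) : Matrix (Fin (m + 2)) (Fin (m + 2)) F) =
      ((g⁻¹ : Matrix.SpecialLinearGroup (Fin (m + 2)) F) : Matrix _ _ F) := by
    rw [hg', ← map_inv]; rfl
  have hN : ((g'⁻¹ : GL (Fin (m + 2)) F) : Matrix (Fin (m + 2)) (Fin (m + 2)) F) *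
      ((t : Matrix (Fin (m + 2)) (Fin (m + 2)) F) - 1) * (g' : Matrix _ _ F) =
      vecMulVec v (Pi.single 0 1) := by
    rw [mul_sub, sub_mul, mul_one, Units.inv_mul, hgi]
    exact sub_eq_of_eq_add' hg
  obtain ⟨k, hk⟩ : ∃ k, v k ≠ 0 := by
    by_contra hcon
    push Not at hcon
    rw [show v = 0 from funext hcon, zero_vecMulVec, Units.mul_left_eq_zero,
      Units.mul_right_eq_zero] at hN
    have := ht.1
    rw [hN, rank_zero] at this
    exact zero_ne_one this
  have hk0 : k ≠ 0 := fun h => hk (h ▸ hv0)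
  set R : Matrix (Fin (m + 2)) (Fin (m + 2)) F := 1 + vecMulVec (v - Pi.single k 1) (Pi.single k 1)
    with hR
  have hRdet : IsUnit R.det := by
    rw [hR, vecMulVec_eq Unit, det_one_add_replicateCol_mul_replicateRow, single_dotProduct]
    simpa using hk
  let r : GL (Fin (m + 2)) F := ((isUnit_iff_isUnit_det R).mpr hRdet).unit
  have hr : (r : Matrix (Fin (m + 2)) (Fin (m + 2)) F) * single k 0 1 =
      vecMulVec v (Pi.single 0 1) * (r : Matrix (Fin (m + 2)) (Fin (m + 2)) F) := by
    show R * single k 0 1 = vecMulVec v (Pi.single 0 1) * R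
    rw [single_eq_single_vecMulVec_single, mul_vecMulVec, vecMulVec_mul]
    congr 1
    · funext i; simp [hR, add_mulVec, mulVec_single_one, vecMulVec_apply]; simp [one_apply, Pi.single_apply]
    · funext j; simp [hR, vecMul_add, single_vecMul, vecMulVec_apply, hk0.symm, hv0]
  refine ⟨r⁻¹ * g'⁻¹, k, hk0, ?_⟩
  rw [_root_.mul_inv_rev, inv_inv, inv_inv, Units.val_mul, Units.val_mul]
  calc _ = ((r⁻¹ : GL (Fin (m + 2)) F) : Matrix _ _ F) *
        (((g'⁻¹ : GL (Fin (m + 2)) F) : Matrix _ _ F) *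
        ((t : Matrix (Fin (m + 2)) (Fin (m + 2)) F) - 1) * (g' : Matrix _ _ F)) *
        (r : Matrix _ _ F) := by simp [Matrix.mul_assoc]
  _ = _ := by rw [hN, Matrix.mul_assoc, ← hr, Units.inv_mul_cancel_left]

theorem card_centralizer [Fintype F] {m : ℕ} (t : GL (Fin (m + 2)) F)
    (ht : Cfsg.IsTransvection (t : Matrix (Fin (m + 2)) (Fin (m + 2)) F)) :
    Nat.card ↥(Subgroup.centralizer ({t} : Set (GL (Fin (m + 2)) F))) =
      Fintype.card F ^ (2 * m + 1) * (Fintype.card F - 1) *
        ∏ i : Fin m, (Fintype.card F ^ m - Fintype.card F ^ (i : ℕ)) := by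
  classical
  obtain ⟨h, k, hk, hh⟩ := exists_model_conj t ht
  have h1 : Nat.card ↥(Subgroup.centralizer ({t} : Set (GL (Fin (m + 2)) F))) =
      Nat.card (Comm ((t : Matrix (Fin (m + 2)) (Fin (m + 2)) F) - 1)) := by
    refine Nat.card_congr (Equiv.subtypeEquiv (Equiv.refl _) fun u => ?_)
    rw [Subgroup.mem_centralizer_singleton_iff]
    simp [mul_sub, sub_mul, Units.ext_iff, eq_comm]
  let f0 : Idx m ≃ Fin (m + 2) := Fintype.equivOfCardEq (by simp [Idx]; omega)
  let f1 := f0.trans (Equiv.swap (f0 (Sum.inl ())) k)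
  let f := f1.trans (Equiv.swap (f1 (Sum.inr (Sum.inr ()))) 0)
  have hf1 : f1 (Sum.inl ()) = k := Equiv.swap_apply_left _ _
  have hfl : f (Sum.inr (Sum.inr ())) = 0 := Equiv.swap_apply_left _ _
  have hfk : f (Sum.inl ()) = k := by
    show Equiv.swap _ _ (f1 (Sum.inl ())) = k
    rw [hf1]
    exact Equiv.swap_apply_of_ne_of_ne (fun he => by
      have := f1.injective (hf1.trans he); simp at this) hk
  rw [h1, card_comm_conj h, hh,
    card_comm_equiv (reindexAlgEquiv F F f.symm).toMulEquiv]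
  have hm : (reindexAlgEquiv F F f.symm).toMulEquiv (single k 0 1 : Matrix _ _ F) = model m := by
    ext i j
    show single k (0 : Fin (m + 2)) (1 : F) (f i) (f j) = model m i j
    rw [model, single_apply, single_apply, ← hfk, ← hfl]
    simp [f.injective.eq_iff]
  rw [hm, card_comm_model, Matrix.card_GL_field]
  ring

end Cfsg.Agent.H29.TransvectionCard
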